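import Mathlib
import Cfsg.Agent.S0026
import Cfsg.Agent.S0027

/-!
# S3544: coprime action, the forms used in Lemma D (thin wrappers of S0026 and S0027)
-/

set_option autoImplicit false
set_option linter.unusedSectionVars false

namespace Cfsg.Agent.R2.T3544.CopLem

open Subgroup Cfsg
open scoped commutatorElement

variable {G : Type*} [Group G] [Finite G] {O X : Subgroup G}

/-- `O = [O, X] C_O(X)` -/
theorem sup_eq (hX : X ≤ normalizer (O : Set G)) (hc : (Nat.card X).Coprime (Nat.card O))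
    (hs : Group.IsSolvable X) : ⁅O, X⁆ ⊔ (O ⊓ centralizer (X : Set G)) = O :=
  S0026.result X O hX hc (Or.inl hs)

/-- `[[O, X], X] = [O, X]` -/
theorem comm_comm (hX : X ≤ normalizer (O : Set G)) (hc : (Nat.card X).Coprime (Nat.card O))
    (hs : Group.IsSolvable X) : ⁅⁅O, X⁆, X⁆ = ⁅O, X⁆ :=
  S0027.result X O hX hc (Or.inl hs)

/-- `[O, X] ≤ O` -/
theorem comm_le (hX : X ≤ normalizer (O : Set G)) : ⁅O, X⁆ ≤ O := by
  rw [commutator_le]
  intro o ho x hx
  rw [commutatorElement_def, mul_assoc, mul_assoc, ← mul_assoc x]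
  exact O.mul_mem ho ((mem_normalizer_iff.1 (hX hx) _).1 (inv_mem ho))

/-- `O` normalises `[O, X]` -/
theorem le_norm (O X : Subgroup G) : O ≤ normalizer ((⁅O, X⁆ : Subgroup G) : Set G) := by
  intro g hg
  have key : ∀ a ∈ O, ∀ z ∈ ⁅O, X⁆, a * z * a⁻¹ ∈ ⁅O, X⁆ := by
    intro a ha z hz
    induction hz using Subgroup.closure_induction with
    | mem y hy =>
      obtain ⟨o, ho, x, hx, rfl⟩ := hy
      have e : a * ⁅o, x⁆ * a⁻¹ = ⁅a * o, x⁆ * ⁅a, x⁆⁻¹ := by simp only [commutatorElement_def]; group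
      rw [e]
      exact mul_mem (commutator_mem_commutator (O.mul_mem ha ho) hx)
        (inv_mem (commutator_mem_commutator ha hx))
    | one => simpa only [mul_one, mul_inv_cancel] using one_mem _
    | mul x y _ _ hx hy =>
      have e : a * (x * y) * a⁻¹ = (a * x * a⁻¹) * (a * y * a⁻¹) := by group
      rw [e]
      exact mul_mem hx hy
    | inv x _ hx =>
      have e : a * x⁻¹ * a⁻¹ = (a * x * a⁻¹)⁻¹ := by group
      rw [e]
      exact inv_mem hx
  rw [mem_normalizer_iff]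
  refine fun z => ⟨key g hg z, fun h => ?_⟩
  have h1 := key g⁻¹ (inv_mem hg) _ h
  have e : g⁻¹ * (g * z * g⁻¹) * g⁻¹⁻¹ = z := by group
  rwa [e] at h1

/-- element form of `O = [O, X] C_O(X)` -/
theorem exists_mul (hX : X ≤ normalizer (O : Set G)) (hc : (Nat.card X).Coprime (Nat.card O))
    (hs : Group.IsSolvable X) {g : G} (hg : g ∈ O) :
    ∃ n ∈ ⁅O, X⁆, ∃ c ∈ O ⊓ centralizer (X : Set G), g = n * c := by
  have h2 : O ⊓ centralizer (X : Set G) ≤ normalizer ((⁅O, X⁆ : Subgroup G) : Set G) :=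
    inf_le_left.trans (le_norm O X)
  rw [← sup_eq hX hc hs, ← SetLike.mem_coe, coe_mul_of_right_le_normalizer_left _ _ h2] at hg
  obtain ⟨n, hn, c, hcc, rfl⟩ := hg
  exact ⟨n, hn, c, hcc, rfl⟩

/-- `O = C_O(X) [O, X]` -/
theorem exists_mul' (hX : X ≤ normalizer (O : Set G)) (hc : (Nat.card X).Coprime (Nat.card O))
    (hs : Group.IsSolvable X) {g : G} (hg : g ∈ O) :
    ∃ c ∈ O ⊓ centralizer (X : Set G), ∃ n ∈ ⁅O, X⁆, g = c * n := by
  obtain ⟨n, hn, c, hcc, e⟩ := exists_mul hX hc hs (inv_mem hg)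
  exact ⟨c⁻¹, inv_mem hcc, n⁻¹, inv_mem hn, by rw [← inv_inv g, e, mul_inv_rev]⟩

/-- if `[O, X, X] = 1` then `[O, X] = 1` -/
theorem comm_eq_bot (hX : X ≤ normalizer (O : Set G)) (hc : (Nat.card X).Coprime (Nat.card O))
    (hs : Group.IsSolvable X) (h : ⁅⁅O, X⁆, X⁆ = ⊥) : ⁅O, X⁆ = ⊥ := by
  rw [← comm_comm hX hc hs, h]

/-- a `p`-group is soluble -/
theorem solv_of_isPGroup {p : ℕ} [Fact p.Prime] (h : IsPGroup p X) : Group.IsSolvable X := by
  have := h.isNilpotent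
  infer_instance

end Cfsg.Agent.R2.T3544.CopLem
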