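import Cfsg.Agent.R2.T3544.Fun

/-!
# S3544: Lemma (C') (helper15)

If the functor `X` satisfies `X w ≤ M_a(x)` for all `w ~_b x`, then `C_{G_x}(M_a(x)) ≤ M_b(x)`;
so each component of `G_x` lies in `M_a(x)` or in `M_b(x)`.
-/

set_option autoImplicit false

namespace Cfsg.Agent.R2.T3544

open Subgroup MulAction Cfsg
open scoped commutatorElement
open Cfsg.Agent.SignalizersComponents.Components

variable {G : Type*} [Group G] {Ω : Type*} [MulAction G Ω] {X : Ω → Subgroup G}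

/-- general form of (C'): `L ≤ G_x` normalises `X w` for all `w ~_b x` -/
theorem le_Mk_of_norm (P : PP G Ω) (hX : Fun G X) {rb : Ω → Ω → Prop} {x : Ω} (hx : X x ≠ ⊥) {L : Subgroup G}
    (hL : L ≤ stabilizer G x) (h : ∀ w, rb x w → L ≤ normalizer (X w : Set G)) : L ≤ Mk G rb x :=
  le_Mk hL fun w hw => (h w hw).trans (hX.normalizer_le P (hX.ne_bot P hx w))

/-- (C') -/
theorem centralizer_Mk_le (P : PP G Ω) (hX : Fun G X) {ra rb : Ω → Ω → Prop} {x : Ω} (hx : X x ≠ ⊥)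
    (h : ∀ w, rb x w → X w ≤ Mk G ra x) {L : Subgroup G} (hL : L ≤ stabilizer G x) (hc : ⁅L, Mk G ra x⁆ = ⊥) :
    L ≤ Mk G rb x := by
  refine le_Mk_of_norm P hX hx hL fun w hw => ?_
  have h1 : L ≤ centralizer (Mk G ra x : Set G) := by
    rwa [← commutator_eq_bot_iff_le_centralizer]
  exact (h1.trans (centralizer_le (h w hw))).trans (cent_le_norm _)

/-- (C') for components -/
theorem comp_le_Mk_or (P : PP G Ω) (hX : Fun G X) {ra rb : Ω → Ω → Prop} {da : ℕ} (A : Dir G ra da)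
    {x : Ω} (hx : X x ≠ ⊥) (h : ∀ w, rb x w → X w ≤ Mk G ra x) {K : Subgroup G}
    (hK : IsComponentOf K (stabilizer G x)) : K ≤ Mk G ra x ∨ K ≤ Mk G rb x := by
  have hn : SubnIn (Mk G ra x) (stabilizer G x) := SubnIn.of_normal (Mk_le ra x) (A.Mk_norm x)
  rcases CompOf.le_or_comm hK hn with h1 | h1
  · exact Or.inl h1
  · exact Or.inr (centralizer_Mk_le P hX hx h hK.1 h1)

end Cfsg.Agent.R2.T3544
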