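import Cfsg.Agent.R2.T3544.FLem
import Cfsg.Agent.R2.T3544.OffB1

/-!
# S3544, LOC: edge groups `O_xy = O_r(G_xy)`
-/

set_option autoImplicit false

namespace Cfsg.Agent.R2.T3544

open Subgroup MulAction Cfsg
open scoped commutatorElement

section op

variable {G : Type*} [Group G] {r : ℕ} {K N H : Subgroup G}

/-- `O_r(K)` -/
def Op (r : ℕ) (K : Subgroup G) : Subgroup G := (pCore r K).map K.subtype

theorem Op_le (r : ℕ) (K : Subgroup G) : Op r K ≤ K := map_subtype_le _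

variable [Finite G] [Fact r.Prime]

theorem Op_isPGroup (r : ℕ) [Fact r.Prime] (K : Subgroup G) : IsPGroup r (Op r K) :=
  (Cfsg.Agent.Lib.Cores.pCore_isPGroup r).map _

theorem le_Op (hK : SubnIn N K) (hp : IsPGroup r N) : N ≤ Op r K := by
  have h1 : N.subgroupOf K ≤ pCore r K :=
    Cfsg.Agent.PLocal.SubnormalCore.le_pCore_of_isSubnormal hK.2
      (hp.comap_of_injective K.subtype (subtype_injective _))
  have h2 := map_mono (f := K.subtype) h1
  rwa [map_subgroupOf_eq_of_le hK.1] at h2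

theorem Op_norm_self (r : ℕ) [Fact r.Prime] (K : Subgroup G) : K ≤ normalizer (Op r K : Set G) := by
  refine le_normalizer_of_map_le fun g hg => ?_
  rintro _ ⟨_, ⟨n, hn, rfl⟩, rfl⟩
  refine ⟨(⟨g, hg⟩ : K) * n * (⟨g, hg⟩ : K)⁻¹, ?_, rfl⟩
  have : (pCore r K).Normal := Cfsg.Agent.Lib.Cores.pCore_normal r
  exact this.conj_mem n hn _

theorem Op_subn (r : ℕ) [Fact r.Prime] (K : Subgroup G) : SubnIn (Op r K) K :=
  SubnIn.of_normal (Op_le r K) (Op_norm_self r K)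

theorem Op_conj (r : ℕ) [Fact r.Prime] (K : Subgroup G) (g : G) :
    Op r (K.map (MulAut.conj g).toMonoidHom) = (Op r K).map (MulAut.conj g).toMonoidHom :=
  conj_eq_of_le (F := Op r) (fun K g => le_Op ((Op_subn r K).conj g) ((Op_isPGroup r K).map _)) K g

theorem Op_norm (r : ℕ) [Fact r.Prime] {K : Subgroup G} (h : H ≤ normalizer (K : Set G)) :
    H ≤ normalizer (Op r K : Set G) := by
  refine le_normalizer_of_map_le fun g hg => ?_
  rw [← Op_conj, map_conj_eq_of_mem (h hg)]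

end op

section edge

variable {G : Type*} [Group G] {Ω : Type*} [MulAction G Ω] {Q K E : Ω → Subgroup G} {r : ℕ}
  {ra rb : Ω → Ω → Prop} {da db : ℕ}

/-- `O_xy = O_r(G_xy)` -/
def EQ (G : Type*) [Group G] {Ω : Type*} [MulAction G Ω] (r : ℕ) (x y : Ω) : Subgroup G :=
  Op r (stabilizer G x ⊓ stabilizer G y)

theorem EQ_comm (x y : Ω) : EQ G r x y = EQ G r y x := by
  unfold EQ
  rw [inf_comm]

theorem EQ_le (x y : Ω) : EQ G r x y ≤ stabilizer G x ⊓ stabilizer G y := Op_le _ _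

theorem EQ_le_left (x y : Ω) : EQ G r x y ≤ stabilizer G x := (EQ_le x y).trans inf_le_left

theorem EQ_le_right (x y : Ω) : EQ G r x y ≤ stabilizer G y := (EQ_le x y).trans inf_le_right

/-- `L_a(x) = ⟨O_xy : y ~_a x⟩` -/
def LQ (G : Type*) [Group G] {Ω : Type*} [MulAction G Ω] (r : ℕ) (ρ : Ω → Ω → Prop) (x : Ω) : Subgroup G :=
  ⨆ y, ⨆ (_ : ρ x y), EQ G r x y

/-- `JJ_a(x) = ⟨J(O_xy) : y ~_a x⟩` -/
def JQ (G : Type*) [Group G] {Ω : Type*} [MulAction G Ω] (r : ℕ) (ρ : Ω → Ω → Prop) (x : Ω) : Subgroup G :=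
  ⨆ y, ⨆ (_ : ρ x y), JE r (EQ G r x y)

theorem le_LQ {ρ : Ω → Ω → Prop} {x y : Ω} (h : ρ x y) : EQ G r x y ≤ LQ G r ρ x := le_iSup₂_of_le y h le_rfl

theorem LQ_le {ρ : Ω → Ω → Prop} {x : Ω} {K : Subgroup G} (h : ∀ y, ρ x y → EQ G r x y ≤ K) : LQ G r ρ x ≤ K :=
  iSup₂_le h

theorem le_JQ {ρ : Ω → Ω → Prop} {x y : Ω} (h : ρ x y) : JE r (EQ G r x y) ≤ JQ G r ρ x :=
  le_iSup₂_of_le y h le_rfl

theorem JQ_le {ρ : Ω → Ω → Prop} {x : Ω} {K : Subgroup G} (h : ∀ y, ρ x y → JE r (EQ G r x y) ≤ K) :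
    JQ G r ρ x ≤ K :=
  iSup₂_le h

theorem JQ_le_LQ [Finite G] (r : ℕ) (ρ : Ω → Ω → Prop) (x : Ω) : JQ G r ρ x ≤ LQ G r ρ x :=
  JQ_le fun _ hy => (JE_le r _).trans (le_LQ hy)

theorem LQ_le_stab (r : ℕ) (ρ : Ω → Ω → Prop) (x : Ω) : LQ G r ρ x ≤ stabilizer G x :=
  LQ_le fun y _ => EQ_le_left x y

variable [Finite G] [Fact r.Prime]

omit [Finite G] [Fact r.Prime] in
/-- a family that is compatible with conjugation is a functor -/
theorem Fun.of_map_le {F : Ω → Subgroup G} (h1 : ∀ x, F x ≤ stabilizer G x)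
    (h2 : ∀ (g : G) (x : Ω), (F x).map (MulAut.conj g).toMonoidHom ≤ F (g • x)) : Fun G F where
  le := h1
  smul g x := by
    refine le_antisymm ?_ (h2 g x)
    have h3 := map_mono (f := (MulAut.conj g).toMonoidHom) (h2 g⁻¹ (g • x))
    rw [inv_smul_smul] at h3
    refine le_trans (le_of_eq ?_) h3
    have h4 := map_map_conj_inv (F (g • x)) g⁻¹
    rw [inv_inv] at h4
    exact h4.symm

theorem EQ_norm (x y : Ω) : stabilizer G x ⊓ stabilizer G y ≤ normalizer (EQ G r x y : Set G) := Op_norm_self _ _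

theorem EQ_isPGroup (x y : Ω) : IsPGroup r (EQ G r x y) := Op_isPGroup _ _

theorem EQ_subn (x y : Ω) : SubnIn (EQ G r x y) (stabilizer G x ⊓ stabilizer G y) := Op_subn _ _

theorem EQ_smul (g : G) (x y : Ω) : EQ G r (g • x) (g • y) = (EQ G r x y).map (MulAut.conj g).toMonoidHom := by
  unfold EQ
  rw [stab_smul, stab_smul, ← map_inf_eq _ _ _ (MulAut.conj g).injective, Op_conj]

theorem LQ_fun (A : Dir G ra da) : Fun G (LQ G r ra) :=
  Fun.of_map_le (LQ_le_stab r ra) fun g x => by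
    unfold LQ
    rw [Subgroup.map_iSup]
    refine iSup_le fun y => ?_
    rw [Subgroup.map_iSup]
    refine iSup_le fun hy => ?_
    rw [← EQ_smul]
    exact le_LQ (A.smul g hy)

theorem JQ_fun (A : Dir G ra da) : Fun G (JQ G r ra) :=
  Fun.of_map_le (fun x => (JQ_le_LQ r ra x).trans (LQ_le_stab r ra x)) fun g x => by
    unfold JQ
    rw [Subgroup.map_iSup]
    refine iSup_le fun y => ?_
    rw [Subgroup.map_iSup]
    refine iSup_le fun hy => ?_
    rw [← JE_conj, ← EQ_smul]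
    exact le_JQ (A.smul g hy)

/-- `Q_x ≤ O_xy` -/
theorem RCore.le_EQ (h : RCore G r Q) (A : Dir G ra da) (hr : ¬ r ∣ da) {x y : Ω} (hy : ra x y) :
    Q x ≤ EQ G r x y :=
  le_Op ((SubnIn.of_normal (h.fn.le x) (h.fn.norm x)).mono
    (le_inf (h.fn.le x) (h.nbr_le A hr (A.symm hy))) inf_le_left) (h.pg x)

theorem RCore.le_EQ' (h : RCore G r Q) (A : Dir G ra da) (hr : ¬ r ∣ da) {x y : Ω} (hy : ra x y) :
    Q y ≤ EQ G r x y := by
  rw [EQ_comm]
  exact h.le_EQ A hr (A.symm hy)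

/-- `O_xy ∩ K ≤ Q_x` for `K ≤ G_xy` subnormal in `G_x` -/
theorem RCore.EQ_inf_le (h : RCore G r Q) {x y : Ω} {K : Subgroup G} (hK : SubnIn K (stabilizer G x))
    (hKy : K ≤ stabilizer G y) : EQ G r x y ⊓ K ≤ Q x := by
  have h1 := (EQ_subn (r := r) x y).inf K
  rw [inf_eq_right.2 (le_inf hK.1 hKy)] at h1
  exact h.max (h1.trans hK) ((EQ_isPGroup x y).to_le inf_le_left)

theorem RCore.EQ_inf_Mk_le (h : RCore G r Q) (A : Dir G ra da) {x y : Ω} (hy : ra x y) :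
    EQ G r x y ⊓ Mk G ra x ≤ Q x :=
  h.EQ_inf_le (SubnIn.of_normal (Mk_le ra x) (A.Mk_norm x)) (Mk_le_nbr hy)

/-- `[O_xy, K] ≤ Q_x` for a normal subgroup `K ≤ G_xy` of `G_x` -/
theorem RCore.comm_EQ (h : RCore G r Q) {x y : Ω} {K : Subgroup G} (hK : K ≤ stabilizer G x)
    (hKn : stabilizer G x ≤ normalizer (K : Set G)) (hKy : K ≤ stabilizer G y) : ⁅EQ G r x y, K⁆ ≤ Q x :=
  (comm_le_inf ((EQ_le_left x y).trans hKn) ((le_inf hK hKy).trans (EQ_norm x y))).trans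
    (h.EQ_inf_le (SubnIn.of_normal hK hKn) hKy)

/-- `[L_a(x), K] ≤ Q_x` for a normal subgroup `K ≤ M_a(x)` of `G_x` -/
theorem RCore.comm_LQ_of_le (h : RCore G r Q) {x : Ω} {K : Subgroup G} (hK : K ≤ Mk G ra x)
    (hKn : stabilizer G x ≤ normalizer (K : Set G)) : ⁅LQ G r ra x, K⁆ ≤ Q x := by
  have hKx : K ≤ stabilizer G x := hK.trans (Mk_le ra x)
  have h1 := iSup_comm_le (A := fun y : {y // ra x y} => EQ G r x y.1) (B := fun _ : Unit => K) (N := Q x)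
    (fun y => (EQ_le_left x y.1).trans (h.fn.norm x)) (fun _ => hKx.trans (h.fn.norm x))
    (fun y _ => h.comm_EQ hKx hKn (hK.trans (Mk_le_nbr y.2)))
  rw [iSup_subtype] at h1
  simpa [LQ] using h1

theorem RCore.comm_LQ_Mk (h : RCore G r Q) (A : Dir G ra da) (x : Ω) : ⁅LQ G r ra x, Mk G ra x⁆ ≤ Q x :=
  h.comm_LQ_of_le le_rfl (A.Mk_norm x)

/-- `O_xy ≤ G_w` for `y ~_a x ~_b w` -/
theorem EQ_le_nbr (A : Dir G ra da) (B : Dir G rb db) (hc : da.Coprime db) (hrb : ¬ r ∣ db) {x y w : Ω}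
    (hy : ra x y) (hw : rb x w) : EQ G r x y ≤ stabilizer G w := by
  by_contra hcon
  refine not_hasIdx_of_isPGroup hrb (EQ_isPGroup (r := r) (G := G) x y)
    ⟨(stabilizer G w).subgroupOf (EQ G r x y), fun h1 => hcon (subgroupOf_eq_top.1 h1), ?_⟩
  have h1 := (EQ_subn (r := r) (G := G) x y).relIndex_dvd (stabilizer G w)
  rw [inf_comm, A.relIndex_inf B hc hy hw] at h1
  exact h1

theorem EQ_le_Mk (A : Dir G ra da) (B : Dir G rb db) (hc : da.Coprime db) (hrb : ¬ r ∣ db) {x y : Ω}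
    (hy : ra x y) : EQ G r x y ≤ Mk G rb x :=
  le_Mk (EQ_le_left x y) fun _ hw => EQ_le_nbr A B hc hrb hy hw

theorem LQ_le_Mk (A : Dir G ra da) (B : Dir G rb db) (hc : da.Coprime db) (hrb : ¬ r ∣ db) (x : Ω) :
    LQ G r ra x ≤ Mk G rb x :=
  LQ_le fun _ hy => EQ_le_Mk A B hc hrb hy

theorem RCore.comm_LQ (h : RCore G r Q) (A : Dir G ra da) (B : Dir G rb db) (hc : da.Coprime db)
    (hra : ¬ r ∣ da) (x : Ω) : ⁅LQ G r ra x, LQ G r rb x⁆ ≤ Q x :=
  (commutator_mono le_rfl (LQ_le_Mk B A hc.symm hra x)).trans (h.comm_LQ_Mk A x)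

/-- **Claim 1** (helper26): `J(O_xy)` is not in `Q_x` -/
theorem RCore.JE_EQ_not_le (h : RCore G r Q) (P : PP G Ω) (A : Dir G ra da) (hr : ¬ r ∣ da) {x y : Ω}
    (hy : ra x y) (hne : Q x ≠ ⊥) : ¬ JE r (EQ G r x y) ≤ Q x := by
  intro h1
  have h2 : JE r (Q x) = JE r (EQ G r x y) := JE_eq (h.le_EQ A hr hy) h1
  have hJ := h.fn.JE r
  obtain ⟨M, hM⟩ := exists_maxEA r (Q x)
  -- nontrivial
  have hne' : JE r (Q x) ≠ ⊥ := by
    intro h3
    have h4 : M = ⊥ := le_bot_iff.1 (h3 ▸ hM.le_JE)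
    have : Nontrivial (Q x) := (Subgroup.nontrivial_iff_ne_bot _).2 hne
    obtain ⟨z, hz, hzr⟩ : ∃ z ∈ Q x, orderOf z = r := by
      obtain ⟨n, hn⟩ := IsPGroup.iff_card.1 (h.pg x)
      have hn0 : n ≠ 0 := by
        rintro rfl
        rw [pow_zero] at hn
        exact hne (Subgroup.card_eq_one.1 hn)
      obtain ⟨z, hz⟩ := exists_prime_orderOf_dvd_card' (G := Q x) r (by rw [hn]; exact dvd_pow_self r hn0)
      exact ⟨z, z.2, by rw [← hz]; exact (orderOf_injective (Q x).subtype (subtype_injective _) z)⟩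
    have hZ : IsEA r (zpowers z) := by
      refine ⟨fun a ha b hb => ?_, fun a ha => ?_⟩
      · obtain ⟨i, rfl⟩ := mem_zpowers_iff.1 ha
        obtain ⟨j, rfl⟩ := mem_zpowers_iff.1 hb
        rw [← zpow_add, ← zpow_add, add_comm]
      · obtain ⟨i, rfl⟩ := mem_zpowers_iff.1 ha
        rw [← zpow_natCast, ← zpow_mul, mul_comm, zpow_mul, zpow_natCast, ← hzr, pow_orderOf_eq_one, one_zpow]
    have h5 := hM.2.2 _ (zpowers_le.2 hz) hZ
    rw [h4, card_bot, Nat.card_zpowers, hzr] at h5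
    exact absurd h5 (not_le.2 (Fact.out : r.Prime).one_lt)
  -- the maximal elementary abelian subgroups of `Q y`
  have h6 : JE r (Q y) ≤ JE r (EQ G r x y) := by
    refine iSup₂_le fun N hN => ?_
    refine MaxEA.le_JE ⟨hN.1.trans (h.le_EQ' A hr hy), hN.2.1, fun B hB hE => ?_⟩
    have h7 : MaxEA r (EQ G r x y) M := (maxEA_iff (h.le_EQ A hr hy) h1).1 hM
    refine (h7.2.2 B hB hE).trans ?_
    obtain ⟨g, rfl⟩ := P.trans x y
    have h8 : MaxEA r (Q (g • x)) (M.map (MulAut.conj g).toMonoidHom) := by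
      rw [h.fn.smul]
      exact hM.conj g
    have h9 := hN.2.2 _ h8.1 h8.2.1
    rwa [card_map_of_injective (MulAut.conj g).injective] at h9
  rw [← h2] at h6
  exact hJ.not_le P A (A.symm hy) (hJ.ne_bot P hne' y) h6

/-- **(F'')** (helper27): a functor `1 ≠ K = O^r(K)` with `K(x) ≤ G_z`, `z ~ x`, does not centralise
`JJ(z)/Q_z` -/
theorem RCore.not_comm_JQ (h : RCore G r Q) (P : PP G Ω) (B : Dir G rb db) (hrb : ¬ r ∣ db)
    (hK : Fun G K) (hKr : ∀ x, Or r (K x) = K x) {x z : Ω} (hxz : rb x z) (hne : K x ≠ ⊥) (hQ : Q x ≠ ⊥)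
    (hcom : ∀ y, rb y z → ⁅K y, JQ G r rb z⁆ ≤ Q z) : False := by
  -- `JJ(z) ≤ G_y` for all `y ~ z`
  have h1 : ∀ y, rb y z → JQ G r rb z ≤ stabilizer G y := by
    intro y hy
    have hney : K y ≠ ⊥ := hK.ne_bot P hne y
    refine le_trans ?_ (hK.normalizer_le P hney)
    refine le_normalizer_of_map_le fun q hq => ?_
    have hQz : Q z ≤ stabilizer G y := h.nbr_le B hrb hy
    have h2 : (K y).map (MulAut.conj q).toMonoidHom ≤ K y ⊔ Q z := by
      rintro _ ⟨k, hk, rfl⟩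
      have h3 : ⁅k, q⁆ ∈ Q z := hcom y hy (commutator_mem_commutator hk hq)
      have h4 : (MulAut.conj q).toMonoidHom k = ⁅k, q⁆⁻¹ * k := by
        show q * k * q⁻¹ = _
        rw [commutatorElement_def]; group
      rw [h4]
      exact mul_mem ((le_sup_right : Q z ≤ K y ⊔ Q z) (inv_mem h3)) ((le_sup_left : K y ≤ K y ⊔ Q z) hk)
    have h5 := Or_le_of_sup (h.pg z) (hQz.trans (hK.norm y)) h2
    rwa [← Or_map_conj, hKr] at h5
  have h2 : JQ G r rb z ≤ Mk G rb z :=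
    Cfsg.Agent.R2.T3544.le_Mk ((JQ_le_LQ r rb z).trans (LQ_le_stab r rb z)) fun y hy => h1 y (B.symm hy)
  have h3 : JE r (EQ G r z x) ≤ Q z :=
    (le_inf (JE_le r _) ((le_JQ (B.symm hxz)).trans h2)).trans (h.EQ_inf_Mk_le B (B.symm hxz))
  exact h.JE_EQ_not_le P B hrb (B.symm hxz) (h.fn.ne_bot P hQ z) h3

end edge

end Cfsg.Agent.R2.T3544
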