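import Cfsg.Agent.R2.T3544.Edge

/-!
# S3544, LOC: helper13's chain lemma
-/

set_option autoImplicit false

namespace Cfsg.Agent.R2.T3544

open Subgroup MulAction Cfsg
open scoped commutatorElement

section off

variable {G : Type*} [Group G] [Finite G] {r : ℕ}

/-- a best offender of maximal measure in `A` -/
theorem exists_bestOff_max (A V : Subgroup G) : ∃ B ≤ A, (∀ C ≤ A,
    Nat.card C * Nat.card (V ⊓ centralizer (C : Set G) : Subgroup G) ≤
      Nat.card B * Nat.card (V ⊓ centralizer (B : Set G) : Subgroup G)) ∧ BestOff B V := by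
  classical
  obtain ⟨B, hB, hmax⟩ := Set.exists_max_image {B : Subgroup G | B ≤ A}
    (fun C : Subgroup G => Nat.card C * Nat.card (V ⊓ centralizer (C : Set G) : Subgroup G)) (Set.toFinite _)
    ⟨A, (le_rfl : A ≤ A)⟩
  exact ⟨B, hB, fun C hC => hmax C hC, fun C hC => hmax C (hC.trans hB)⟩

/-- if `A` contains no nontrivial best offender on `V` and does not centralise `V`, then
`|A| |C_V(A)| < |C_A(V)| |V|` -/
theorem card_lt_of_no_off {A V : Subgroup G} (h : ∀ B ≤ A, BestOff B V → B ≤ centralizer (V : Set G))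
    (hA : ¬ A ≤ centralizer (V : Set G)) :
    Nat.card A * Nat.card (V ⊓ centralizer (A : Set G) : Subgroup G) <
      Nat.card (A ⊓ centralizer (V : Set G) : Subgroup G) * Nat.card V := by
  obtain ⟨B, hBA, hmax, hbo⟩ := exists_bestOff_max A V
  have hBV := h B hBA hbo
  have hVB : V ⊓ centralizer (B : Set G) = V := inf_eq_left.2 (le_centralizer_iff.1 hBV)
  rw [hVB] at hmax
  refine lt_of_lt_of_le (lt_of_le_of_ne (hmax A le_rfl) ?_)
    (Nat.mul_le_mul_right _ (card_le_of_le (le_inf hBA hBV)))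
  intro heq
  apply hA
  apply h A le_rfl
  intro C hC
  rw [heq]
  exact hmax C hC

/-- two subgroups without offenders on each other commute -/
theorem comm_of_no_off {V W : Subgroup G} (h1 : ∀ B ≤ W, BestOff B V → B ≤ centralizer (V : Set G))
    (h2 : ∀ B ≤ V, BestOff B W → B ≤ centralizer (W : Set G)) : W ≤ centralizer (V : Set G) := by
  by_contra hcon
  have hcon' : ¬ V ≤ centralizer (W : Set G) := fun h => hcon (le_centralizer_iff.1 h)
  have h3 := card_lt_of_no_off h1 hcon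
  have h4 := card_lt_of_no_off h2 hcon'
  rw [mul_comm (Nat.card V)] at h4
  rw [mul_comm (Nat.card W)] at h3
  exact absurd h3 (not_lt.2 h4.le)

omit [Finite G] in
/-- the join of pairwise commuting elementary abelian subgroups -/
theorem IsEA.iSup {ι : Sort*} {A : ι → Subgroup G} (h : ∀ i, IsEA r (A i))
    (hc : ∀ i j, A i ≤ centralizer (A j : Set G)) : IsEA r (⨆ i, A i) := by
  have h1 : (⨆ i, A i) ≤ centralizer ((⨆ i, A i : Subgroup G) : Set G) := by
    refine iSup_le fun j => ?_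
    rw [le_centralizer_iff]
    exact iSup_le fun i => hc i j
  have hcomm : ∀ a ∈ ⨆ i, A i, ∀ b ∈ ⨆ i, A i, a * b = b * a := fun a ha b hb =>
    (mem_centralizer_iff.1 (h1 hb) a ha)
  refine ⟨hcomm, fun a ha => ?_⟩
  have key : a ∈ ⨆ i, A i ∧ a ^ r = 1 := by
    refine iSup_induction A (C := fun a => a ∈ ⨆ i, A i ∧ a ^ r = 1) ha ?_ ?_ ?_
    · exact fun i x hx => ⟨le_iSup A i hx, (h i).2 x hx⟩
    · exact ⟨one_mem _, one_pow _⟩
    · rintro x y ⟨hx, hx'⟩ ⟨hy, hy'⟩
      refine ⟨mul_mem hx hy, ?_⟩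
      have h2 : Commute x y := hcomm x hx y hy
      rw [h2.mul_pow, hx', hy', one_mul]
  exact key.2

end off

section chain

variable {G : Type*} [Group G] [Finite G] {Ω : Type*} [MulAction G Ω] {Q : Ω → Subgroup G} {r : ℕ} [Fact r.Prime]
  {ra : Ω → Ω → Prop} {da : ℕ}

/-- `E¹_x = E_x ⟨E_y : y ~ x⟩` -/
def E1 (ρ : Ω → Ω → Prop) (E : Ω → Subgroup G) (x : Ω) : Subgroup G := ⨆ y : {y // y = x ∨ ρ x y}, E y.1

/-- the hypothesis of the chain lemma -/
structure ChainHyp (r : ℕ) (Q : Ω → Subgroup G) (ρ : Ω → Ω → Prop) (E : Ω → Subgroup G) : Prop where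
  fn : Fun G E
  ea : ∀ x, IsEA r (E x)
  le : ∀ x, E x ≤ Q x
  cent : ∀ {x y : Ω}, ρ x y → centralizer (E x : Set G) ⊓ EQ G r x y ≤ Q x
  noOff : ∀ {x y : Ω}, ρ x y → ∀ B ≤ EQ G r x y, IsEA r B → BestOff B (E x) → B ≤ centralizer (E x : Set G)

omit [Finite G] [Fact r.Prime] in
theorem E1_ge {ρ : Ω → Ω → Prop} {E : Ω → Subgroup G} (x : Ω) : E x ≤ E1 ρ E x :=
  le_iSup (fun y : {y // y = x ∨ ρ x y} => E y.1) ⟨x, Or.inl rfl⟩

omit [Finite G] [Fact r.Prime] in
theorem E1_ge_nbr {ρ : Ω → Ω → Prop} {E : Ω → Subgroup G} {x y : Ω} (h : ρ x y) : E y ≤ E1 ρ E x :=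
  le_iSup (fun y : {y // y = x ∨ ρ x y} => E y.1) ⟨y, Or.inr h⟩

/-- one step of the chain -/
theorem ChainHyp.step (h : RCore G r Q) (A : Dir G ra da) (hr : ¬ r ∣ da) {E : Ω → Subgroup G}
    (H : ChainHyp r Q ra E) : ChainHyp r Q ra (E1 ra E) := by
  -- neighbours commute
  have hJ : ∀ {x y}, ra x y → JE r (EQ G r x y) ≤ centralizer (E x : Set G) := fun {x y} hy =>
    JE_le_centralizer_of_no_off ((H.le x).trans (h.le_EQ A hr hy)) (H.ea x)
      fun B hB hbo => H.noOff hy B hB.1 hB.2.1 hbo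
  have hY : ∀ {x y}, ra x y → E x ≤ YE r (EQ G r x y) := fun {x y} hy =>
    le_YE ((H.le x).trans (h.le_EQ A hr hy)) (H.ea x) (hJ hy)
  have hc1 : ∀ {x y}, ra x y → E y ≤ centralizer (E x : Set G) := by
    intro x y hy
    have h1 : E y ≤ YE r (EQ G r x y) := by
      rw [EQ_comm]
      exact hY (A.symm hy)
    have h2 := (YE_isEA r (EQ G r x y)).le_centralizer
    exact h1.trans (h2.trans (centralizer_le (hY hy)))
  have hle : ∀ {x y}, ra x y → E y ≤ Q x := fun {x y} hy =>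
    (le_inf (hc1 hy) ((H.le y).trans (h.le_EQ' A hr hy))).trans (H.cent hy)
  have hc2 : ∀ {x y y'}, ra x y → ra x y' → E y' ≤ centralizer (E y : Set G) := by
    intro x y y' hy hy'
    refine comm_of_no_off (fun B hB hbo => ?_) (fun B hB hbo => ?_)
    · exact H.noOff (A.symm hy) B (hB.trans ((hle hy').trans (h.le_EQ' A hr (A.symm hy)))) ((H.ea y').mono hB) hbo
    · exact H.noOff (A.symm hy') B (hB.trans ((hle hy).trans (h.le_EQ' A hr (A.symm hy')))) ((H.ea y).mono hB) hbo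
  have hle1 : ∀ x, E1 ra E x ≤ Q x := by
    intro x
    refine iSup_le ?_
    rintro ⟨y, rfl | hy⟩
    · exact H.le y
    · exact hle hy
  refine ⟨Fun.of_map_le (fun x => (hle1 x).trans (h.fn.le x)) fun g x => ?_, fun x => ?_, hle1, ?_, ?_⟩
  · unfold E1
    rw [Subgroup.map_iSup]
    refine iSup_le ?_
    rintro ⟨y, hy⟩
    rw [← H.fn.smul]
    refine le_iSup (fun y : {y // y = g • x ∨ ra (g • x) y} => E y.1) ⟨g • y, ?_⟩
    rcases hy with rfl | hy
    · exact Or.inl rfl
    · exact Or.inr (A.smul g hy)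
  · refine IsEA.iSup (fun y => H.ea y.1) ?_
    rintro ⟨y, rfl | hy⟩ ⟨z, hz⟩
    · rcases hz with rfl | hz
      · exact (H.ea z).le_centralizer
      · exact le_centralizer_iff.1 (hc1 hz)
    · rcases hz with rfl | hz
      · exact hc1 hy
      · exact hc2 hz hy
  · intro x y hy
    exact (inf_le_inf_right _ (centralizer_le (E1_ge x))).trans (H.cent hy)
  · intro x y hy B hB hE hbo
    have h1 : B ≤ centralizer (E x : Set G) := H.noOff hy B hB hE (hbo.restrict (E1_ge x))
    have h2 : B ≤ Q x := (le_inf h1 hB).trans (H.cent hy)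
    rw [le_centralizer_iff]
    refine iSup_le ?_
    rintro ⟨z, rfl | hz⟩
    · exact le_centralizer_iff.1 h1
    · exact le_centralizer_iff.1 (H.noOff (A.symm hz) B (h2.trans (h.le_EQ' A hr (A.symm hz))) hE
        (hbo.restrict (E1_ge_nbr hz)))

/-- **chain lemma** (helper13) -/
theorem ChainHyp.false (h : RCore G r Q) (P : PP G Ω) (A : Dir G ra da) (hr : ¬ r ∣ da) {E : Ω → Subgroup G}
    (H : ChainHyp r Q ra E) {x : Ω} (hne : E x ≠ ⊥) : False := by
  induction hn : Nat.card G - Nat.card (E x) using Nat.strong_induction_on generalizing E with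
  | _ n ih =>
    obtain ⟨y, hy⟩ := A.ex x
    have h1 : ¬ E y ≤ E x := H.fn.not_le P A (A.symm hy) (H.fn.ne_bot P hne y)
    have h2 : E x < E1 ra E x := lt_of_le_of_ne (E1_ge x) fun heq => h1 (heq ▸ E1_ge_nbr hy)
    have h3 : Nat.card (E x) < Nat.card (E1 ra E x) := by
      refine lt_of_le_of_ne (card_le_of_le h2.le) fun heq => ?_
      exact h2.ne (eq_of_le_of_card_ge h2.le heq.ge)
    have h4 : Nat.card (E1 ra E x) ≤ Nat.card G := card_le_card_group _
    exact ih _ (by omega) (H.step h A hr) (fun h5 => by rw [h5] at h2; exact not_lt_bot h2) rfl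

/-- the chain lemma in positive form: for a functor `1 ≠ E_x ≤ Q_x`, elementary abelian with
`C(E_x) ∩ O_xy ≤ Q_x` some `O_xy` contains a nontrivial best offender on `E_x` -/
theorem RCore.exists_off (h : RCore G r Q) (P : PP G Ω) (A : Dir G ra da) (hr : ¬ r ∣ da) {E : Ω → Subgroup G}
    (hE : Fun G E) (hea : ∀ x, IsEA r (E x)) (hle : ∀ x, E x ≤ Q x)
    (hcent : ∀ {x y : Ω}, ra x y → centralizer (E x : Set G) ⊓ EQ G r x y ≤ Q x) {x : Ω} (hne : E x ≠ ⊥) :
    ∃ x y, ra x y ∧ ∃ B ≤ EQ G r x y, IsEA r B ∧ BestOff B (E x) ∧ ¬ B ≤ centralizer (E x : Set G) := by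
  by_contra hcon
  push Not at hcon
  exact ChainHyp.false h P A hr ⟨hE, hea, hle, hcent, fun {x y} hy B hB hBE hbo => hcon x y hy B hB hBE hbo⟩ hne

end chain

end Cfsg.Agent.R2.T3544
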