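import Cfsg.Agent.R2.T3544.OffB1
import Cfsg.Agent.H281.PGV.Top
import Cfsg.Agent.H718.ConjRep

/-!
# S3544, LOC, edge version: the `P(G,V)`-theorem in the form needed

`A` el. ab. best offender on the el. ab. group `V`, `K` perfect, quasisimple modulo `C_K(V)`, every `a ∈ A` normalises `K`
or `[K^a,K] ≤ C(V)`: then `A` normalises `K` or `K ≤ C(V)`.
-/

set_option autoImplicit false

namespace Cfsg.Agent.R2.T3544

open Subgroup
open scoped commutatorElement

universe u

section

variable {G : Type u} [Group G] [Finite G]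

theorem card_map_ker {G' : Type*} [Group G'] {M : Type*} [Monoid M] (f : G →* M) (π : G →* G') (hπ : π.ker = f.ker)
    (H : Subgroup G) : Nat.card (H.map π) * Nat.card ↥(f.ker ⊓ H) = Nat.card H := by
  have h1 : π.ker.relIndex H = Nat.card (H.map π) := relIndex_ker H π
  have h2 : (π.ker ⊓ H).relIndex H = π.ker.relIndex H := inf_relIndex_right _ _
  have h3 : Nat.card ↥(π.ker ⊓ H) * (π.ker ⊓ H).relIndex H = Nat.card H := by
    have := relIndex_mul_relIndex (⊥ : Subgroup G) (π.ker ⊓ H) H bot_le inf_le_right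
    rwa [relIndex_bot_left, relIndex_bot_left] at this
  rw [← hπ, ← h3, h2, h1, mul_comm]

/-- **P(G,V)** for a single quasisimple `K` -/
theorem le_centralizer_of_moves {r : ℕ} [Fact r.Prime] {V A K : Subgroup G} (hV : IsEA r V) (hA : IsEA r A)
    (hAV : A ≤ normalizer (V : Set G)) (hKV : K ≤ normalizer (V : Set G)) (hperf : ⁅K, K⁆ = K)
    (hconj : ∀ a ∈ A, a ∈ normalizer (K : Set G) ∨
      ∀ x ∈ K, ∀ y ∈ K, ⁅a * x * a⁻¹, y⁆ ∈ centralizer (V : Set G))
    (hqs : ∀ N : Subgroup G, N ≤ K → K ≤ normalizer (N : Set G) → K ≤ N ⊔ (K ⊓ centralizer (V : Set G)) ∨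
      ⁅N, K⁆ ≤ centralizer (V : Set G))
    (hbo : BestOff A V) {a₀ : G} (ha₀ : a₀ ∈ A) (hn : a₀ ∉ normalizer (K : Set G)) :
    K ≤ centralizer (V : Set G) := by
  classical
  set D := A ⊔ K with hD
  have hDV : D ≤ normalizer (V : Set G) := sup_le hAV hKV
  obtain ⟨E, _, _, _, e, ρ, hadd, hρ⟩ := H718.exists_conjRep r D V hV.1 hV.2 fun h hh u hu =>
    (mem_normalizer_iff.1 (hDV hh) u).1 hu
  set π := QuotientGroup.mk' ρ.ker with hπ
  have hπk : π.ker = ρ.ker := QuotientGroup.ker_mk' _
  let ρ' : Representation (ZMod r) (D ⧸ ρ.ker) E := QuotientGroup.lift ρ.ker ρ fun x hx => hx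
  have hρ' : ∀ d : D, ρ' (π d) = ρ d := fun d => rfl
  have hmemk : ∀ d : D, d ∈ ρ.ker ↔ (d : G) ∈ centralizer (V : Set G) := by
    intro d
    rw [MonoidHom.mem_ker, mem_centralizer_iff]
    constructor
    · intro h v hv
      have h1 := hρ d (e.symm ⟨v, hv⟩)
      rw [h, Module.End.one_apply, Equiv.apply_symm_apply] at h1
      have h2 : v = (d : G) * v * (d : G)⁻¹ := h1
      calc v * (d : G) = ((d : G) * v * (d : G)⁻¹) * (d : G) := by rw [← h2]
        _ = (d : G) * v := by group
    · intro h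
      apply LinearMap.ext
      intro s
      apply e.injective
      apply Subtype.ext
      rw [hρ, Module.End.one_apply]
      have h1 := h (e s : G) (e s).2
      rw [← h1]
      group
  have hAD : A ≤ D := le_sup_left
  have hKD : K ≤ D := le_sup_right
  set K' := (K.subgroupOf D).map π with hK'
  set A' := (A.subgroupOf D).map π with hA'
  have memK : ∀ {x : G} (hx : x ∈ K), π ⟨x, hKD hx⟩ ∈ K' := fun hx => ⟨_, hx, rfl⟩
  have hnorm : ∀ {a : D}, (a : G) ∈ normalizer (K : Set G) → π a ∈ normalizer (K' : Set (D ⧸ ρ.ker)) := by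
    intro a ha
    have key : ∀ b : D, (b : G) ∈ normalizer (K : Set G) → ∀ x ∈ K', π b * x * (π b)⁻¹ ∈ K' := by
      rintro b hb _ ⟨x, hx, rfl⟩
      refine ⟨b * x * b⁻¹, ?_, by rw [map_mul, map_mul, map_inv]⟩
      exact (mem_normalizer_iff.1 hb x).1 hx
    rw [mem_normalizer_iff]
    intro x
    constructor
    · exact key a ha x
    · intro h
      have h1 := key a⁻¹ (by rw [coe_inv]; exact inv_mem ha) _ h
      rw [map_inv] at h1
      have h2 : (π a)⁻¹ * (π a * x * (π a)⁻¹) * (π a)⁻¹⁻¹ = x := by group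
      rwa [h2] at h1
  have hcent : ∀ {a : D}, (∀ x ∈ K, ∀ y ∈ K, ⁅(a : G) * x * (a : G)⁻¹, y⁆ ∈ centralizer (V : Set G)) →
      ∀ x ∈ K', ∀ y ∈ K', (π a * x * (π a)⁻¹) * y = y * (π a * x * (π a)⁻¹) := by
    rintro a h _ ⟨x, hx, rfl⟩ _ ⟨y, hy, rfl⟩
    have h1 := h x hx y hy
    have h2 : ⁅a * x * a⁻¹, y⁆ ∈ ρ.ker := (hmemk _).2 h1
    rw [← hπk, MonoidHom.mem_ker, map_commutatorElement, commutatorElement_eq_one_iff_mul_comm, map_mul, map_mul,
      map_inv] at h2
    exact h2
  have hperf' : ⁅K', K'⁆ = K' := by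
    rw [hK', ← map_commutator]
    congr 1
    apply map_injective D.subtype_injective
    rw [map_commutator, map_subgroupOf_eq_of_le hKD, hperf]
  have hVD : H281.PGV.VD r K' A' :=
    { comm := by
        rintro _ ⟨a, ha, rfl⟩ _ ⟨b, hb, rfl⟩
        rw [← map_mul, ← map_mul]
        exact congrArg π (Subtype.ext (hA.1 a.1 ha b.1 hb))
      exp := by
        rintro _ ⟨a, ha, rfl⟩
        rw [← map_pow, show a ^ r = 1 from Subtype.ext (hA.2 a.1 ha), map_one]
      gen := by
        rw [hA', hK', ← Subgroup.map_sup, ← subgroupOf_sup hAD hKD, subgroupOf_eq_top.2 le_rfl]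
        exact map_top_of_surjective π (QuotientGroup.mk'_surjective _)
      conj := by
        rintro _ ⟨a, ha, rfl⟩
        rcases hconj a.1 ha with h | h
        · exact Or.inl (hnorm h)
        · exact Or.inr (hcent h)
      perf := hperf'
      qs := by
        intro N hNK hN
        set N₁ : Subgroup G := (N.comap π ⊓ K.subgroupOf D).map D.subtype with hN₁
        have h1 : N₁ ≤ K := by
          rintro _ ⟨n, hn, rfl⟩
          exact hn.2
        have h2 : K ≤ normalizer (N₁ : Set G) := by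
          have key : ∀ k ∈ K, ∀ n ∈ N₁, k * n * k⁻¹ ∈ N₁ := by
            rintro k hk _ ⟨n, hn, rfl⟩
            refine ⟨⟨k, hKD hk⟩ * n * ⟨k, hKD hk⟩⁻¹, ⟨?_, ?_⟩, rfl⟩
            · show π (⟨k, hKD hk⟩ * n * ⟨k, hKD hk⟩⁻¹) ∈ N
              rw [map_mul, map_mul, map_inv]
              exact hN _ (memK hk) _ hn.1
            · exact K.mul_mem (K.mul_mem hk hn.2) (K.inv_mem hk)
          intro k hk
          rw [mem_normalizer_iff]
          intro n
          constructor
          · exact key k hk n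
          · intro h
            have h3 := key k⁻¹ (K.inv_mem hk) _ h
            have h4 : k⁻¹ * (k * n * k⁻¹) * k⁻¹⁻¹ = n := by group
            rwa [h4] at h3
        rcases hqs N₁ h1 h2 with h3 | h3
        · left
          refine le_antisymm hNK ?_
          rintro _ ⟨k, hk, rfl⟩
          have h4 : (K.subgroupOf D) ≤ (N.comap π ⊓ K.subgroupOf D) ⊔ ρ.ker := by
            have h5 : (K.subgroupOf D).map D.subtype ≤ ((N.comap π ⊓ K.subgroupOf D) ⊔ ρ.ker).map D.subtype := by
              rw [map_subgroupOf_eq_of_le hKD, Subgroup.map_sup]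
              refine h3.trans (sup_le_sup le_rfl ?_)
              rintro c ⟨hc, hc'⟩
              exact ⟨⟨c, hKD hc⟩, (hmemk _).2 hc', rfl⟩
            exact (map_le_map_iff_of_injective D.subtype_injective).1 h5
          have h6 : (K.subgroupOf D).map π ≤ N := by
            refine (map_mono h4).trans ?_
            rw [Subgroup.map_sup]
            refine sup_le ?_ ?_
            · rintro _ ⟨n, hn, rfl⟩
              exact hn.1
            · rintro _ ⟨n, hn, rfl⟩
              have h7 : π n = 1 := by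
                rw [← MonoidHom.mem_ker, hπk]
                exact hn
              rw [h7]
              exact N.one_mem
          exact h6 ⟨k, hk, rfl⟩
        · right
          rintro n hn _ ⟨k, hk, rfl⟩
          obtain ⟨m, hm, rfl⟩ := hNK hn
          have h4 : ⁅(m : G), (k : G)⁆ ∈ centralizer (V : Set G) :=
            h3 (commutator_mem_commutator ⟨m, ⟨hn, hm⟩, rfl⟩ hk)
          have h5 : ⁅m, k⁆ ∈ ρ.ker := (hmemk _).2 h4
          rw [← hπk, MonoidHom.mem_ker, map_commutatorElement, commutatorElement_eq_one_iff_mul_comm] at h5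
          exact h5 }
  -- the offender inequality
  have hbest : H281.PGV.Best ρ' A' := by
    intro B hB
    set B₁ : Subgroup D := B.comap π ⊓ A.subgroupOf D with hB₁
    have e1 : B₁.map π = B := by
      refine le_antisymm ?_ ?_
      · rintro _ ⟨b, hb, rfl⟩
        exact hb.1
      · intro b hb
        obtain ⟨a, ha, rfl⟩ := hB hb
        exact ⟨a, ⟨hb, ha⟩, rfl⟩
    have e2 : ρ.ker ⊓ B₁ = ρ.ker ⊓ A.subgroupOf D := by
      refine le_antisymm (le_inf inf_le_left (inf_le_right.trans inf_le_right))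
        (le_inf inf_le_left (le_inf ?_ inf_le_right))
      rintro c ⟨hc, -⟩
      show π c ∈ B
      have : π c = 1 := by rw [← MonoidHom.mem_ker, hπk]; exact hc
      rw [this]
      exact B.one_mem
    have c1 := card_map_ker ρ π hπk B₁
    have c2 := card_map_ker ρ π hπk (A.subgroupOf D)
    rw [e1, e2] at c1
    have hcard : ∀ X : Subgroup D, Nat.card X = Nat.card (X.map D.subtype) := fun X =>
      Nat.card_congr (X.equivMapOfInjective _ D.subtype_injective).toEquiv
    have hfx : ∀ X : Subgroup D, Nat.card (H281.PGV.fx ρ' (X.map π)) =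
        Nat.card (V ⊓ centralizer ((X.map D.subtype : Subgroup G) : Set G) : Subgroup G) := by
      intro X
      apply Nat.card_congr
      refine ⟨fun s => ⟨e s.1, (e s.1).2, ?_⟩, fun v => ⟨e.symm ⟨v.1, v.2.1⟩, ?_⟩, ?_, ?_⟩
      · refine mem_centralizer_iff.2 ?_
        rintro _ ⟨x, hx, rfl⟩
        have h1 := hρ x s.1
        have h2 : ρ x s.1 = s.1 := s.2 (π x) ⟨x, hx, rfl⟩
        rw [h2] at h1
        show (x : G) * (e s.1 : G) = (e s.1 : G) * (x : G)
        calc (x : G) * (e s.1 : G) = ((x : G) * (e s.1 : G) * (x : G)⁻¹) * (x : G) := by group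
          _ = (e s.1 : G) * (x : G) := by rw [← h1]
      · rintro _ ⟨x, hx, rfl⟩
        rw [hρ']
        apply e.injective
        apply Subtype.ext
        rw [hρ, Equiv.apply_symm_apply]
        have h1 : (x : G) * v.1 = v.1 * (x : G) := mem_centralizer_iff.1 v.2.2 (x : G) ⟨x, hx, rfl⟩
        show (x : G) * v.1 * (x : G)⁻¹ = v.1
        rw [h1]
        group
      · intro s
        exact Subtype.ext (e.symm_apply_apply _)
      · intro v
        apply Subtype.ext
        show ((e (e.symm ⟨v.1, v.2.1⟩) : V) : G) = v.1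
        rw [Equiv.apply_symm_apply]
    have h1 := hbo (B₁.map D.subtype) (by
      rintro _ ⟨b, hb, rfl⟩
      exact hb.2)
    have e3 : (A.subgroupOf D).map D.subtype = A := map_subgroupOf_eq_of_le hAD
    have f1 := hfx B₁
    have f2 := hfx (A.subgroupOf D)
    rw [e1] at f1
    rw [e3] at f2
    have g1 : Nat.card (B₁.map D.subtype) = Nat.card B * Nat.card ↥(ρ.ker ⊓ A.subgroupOf D) := by
      rw [← hcard, c1]
    have g2 : Nat.card A = Nat.card A' * Nat.card ↥(ρ.ker ⊓ A.subgroupOf D) := by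
      rw [c2, hcard, e3]
    rw [f1, f2]
    rw [g1, g2] at h1
    have hpos : 0 < Nat.card ↥(ρ.ker ⊓ A.subgroupOf D) := Nat.card_pos
    refine le_of_mul_le_mul_right ?_ hpos
    calc _ = Nat.card B * Nat.card ↥(ρ.ker ⊓ A.subgroupOf D) *
          Nat.card (V ⊓ centralizer ((B₁.map D.subtype : Subgroup G) : Set G) : Subgroup G) := by ring
      _ ≤ _ := h1
      _ = _ := by ring
  have htriv : ∀ x ∈ K', ∀ v, ρ' x v = v := by
    by_cases hn' : π ⟨a₀, hAD ha₀⟩ ∈ normalizer (K' : Set (D ⧸ ρ.ker))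
    · have h1 := (hconj a₀ ha₀).resolve_left hn
      have h2 := hcent (a := ⟨a₀, hAD ha₀⟩) h1
      have h3 : ∀ x ∈ K', ∀ y ∈ K', x * y = y * x := by
        intro x hx y hy
        have h4 : (π ⟨a₀, hAD ha₀⟩)⁻¹ * x * (π ⟨a₀, hAD ha₀⟩)⁻¹⁻¹ ∈ K' :=
          (mem_normalizer_iff.1 (inv_mem hn') x).1 hx
        have h5 := h2 _ h4 y hy
        have h6 : π ⟨a₀, hAD ha₀⟩ * ((π ⟨a₀, hAD ha₀⟩)⁻¹ * x * (π ⟨a₀, hAD ha₀⟩)⁻¹⁻¹) * (π ⟨a₀, hAD ha₀⟩)⁻¹ = x := by
          group
        rwa [h6] at h5
      have h4 : ⁅K', K'⁆ = ⊥ := by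
        rw [commutator_eq_bot_iff_le_centralizer]
        intro x hx
        rw [mem_centralizer_iff]
        exact fun y hy => h3 y hy x hx
      rw [hperf'] at h4
      intro x hx v
      rw [h4, mem_bot] at hx
      rw [hx, map_one]
      rfl
    · exact H281.PGV.main_V hVD (a₀ := π ⟨a₀, hAD ha₀⟩) ⟨_, ha₀, rfl⟩ hn' (Nat.card E) E ρ' le_rfl hbest
  intro k hk
  refine (hmemk ⟨k, hKD hk⟩).1 ?_
  rw [MonoidHom.mem_ker]
  apply LinearMap.ext
  intro v
  exact htriv _ (memK hk) v

end

end Cfsg.Agent.R2.T3544
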