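import Cfsg.Agent.R2.T3544.FLem

/-!
# S3544, LOC: groups with small non-abelian simple sections, and the residual

`Small t H`: every non-abelian simple section of `H` has order `< t`. `resS t K`: the smallest normal subgroup `N` of `K`
with `Small t (K/N)`.
-/

set_option autoImplicit false
set_option linter.unusedSectionVars false

namespace Cfsg.Agent.R2.T3544

open Subgroup MulAction Cfsg
open scoped commutatorElement

universe u

section

/-- every non-abelian simple section has order `< t` -/
def Small (t : ℕ) (H : Type u) [Group H] : Prop :=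
  ∀ (A : Subgroup H) (S : Type u) [Group S] [IsSimpleGroup S] (f : A →* S), Function.Surjective f →
    (∃ x y : S, x * y ≠ y * x) → Nat.card S < t

variable {H K L : Type u} [Group H] [Group K] [Group L] {t : ℕ}

theorem Small.of_injective (h : Small t H) (f : K →* H) (hf : Function.Injective f) : Small t K := by
  intro A S _ _ g hg hne
  have e := A.equivMapOfInjective f hf
  exact h (A.map f) S (g.comp e.symm.toMonoidHom) (hg.comp e.symm.surjective) hne

theorem Small.of_surjective (h : Small t H) (f : H →* K) (hf : Function.Surjective f) : Small t K := by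
  intro A S _ _ g hg hne
  exact h (A.comap f) S (g.comp (f.subgroupComap A))
    (hg.comp (MonoidHom.subgroupComap_surjective_of_surjective f A hf)) hne

theorem Small.congr (h : Small t H) (e : H ≃* K) : Small t K := h.of_surjective e.toMonoidHom e.surjective

theorem Small.mono {s : ℕ} (h : Small t H) (hs : t ≤ s) : Small s H := by
  intro A S _ _ g hg hne
  exact lt_of_lt_of_le (h A S g hg hne) hs

/-- extensions -/
theorem Small.of_ker (f : H →* K) (h1 : Small t f.ker) (h2 : Small t K) : Small t H := by
  intro A S _ _ g hg hne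
  set φ : A →* K := f.comp A.subtype with hφ
  have hn : (φ.ker.map g).Normal := (inferInstance : φ.ker.Normal).map g hg
  rcases hn.eq_bot_or_eq_top with h3 | h3
  · -- factors through `A.map f`
    have h4 : φ.ker ≤ g.ker := by rwa [Subgroup.map_eq_bot_iff] at h3
    have h5 : φ.rangeRestrict.ker = φ.ker := MonoidHom.ker_rangeRestrict φ
    have h6 : φ.rangeRestrict.ker ≤ g.ker := h5.le.trans h4
    let g' : φ.range →* S :=
      MonoidHom.liftOfSurjective φ.rangeRestrict (MonoidHom.rangeRestrict_surjective φ) ⟨g, h6⟩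
    have h7 : ∀ a : A, g' (φ.rangeRestrict a) = g a := fun a =>
      MonoidHom.liftOfRightInverse_comp_apply _ _ _ ⟨g, h6⟩ a
    refine h2 φ.range S g' ?_ hne
    intro s
    obtain ⟨a, rfl⟩ := hg s
    exact ⟨φ.rangeRestrict a, h7 a⟩
  · -- covered by the kernel
    let ι : φ.ker →* f.ker :=
      { toFun := fun a => ⟨(a : A), by
          have := a.2
          rw [MonoidHom.mem_ker] at this ⊢
          exact this⟩
        map_one' := rfl
        map_mul' := fun _ _ => rfl }
    have hι : Function.Injective ι := by
      intro a b hab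
      have h4 : ((a : A) : H) = ((b : A) : H) := by
        have h4' := congrArg (fun c : f.ker => (c : H)) hab
        exact h4'
      exact Subtype.ext (Subtype.ext h4)
    have h5 : Small t φ.ker := h1.of_injective ι hι
    let g' : (⊤ : Subgroup φ.ker) →* S := (g.comp φ.ker.subtype).comp (⊤ : Subgroup φ.ker).subtype
    refine h5 ⊤ S g' ?_ hne
    intro s
    have h6 : s ∈ φ.ker.map g := by rw [h3]; exact Subgroup.mem_top s
    obtain ⟨a, ha, rfl⟩ := h6
    exact ⟨⟨⟨a, ha⟩, Subgroup.mem_top _⟩, rfl⟩

theorem small_of_isSolvable (hs : Group.IsSolvable H) : Small t H := by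
  intro A S _ _ g hg hne
  exfalso
  haveI := hs
  haveI h0 : Group.IsSolvable A := inferInstance
  have h1 : Group.IsSolvable S := Group.isSolvable_of_surjective hg
  obtain ⟨x, y, hxy⟩ := hne
  exact hxy (IsSimpleGroup.comm_iff_isSolvable.2 h1 x y)

theorem Small.of_normal {N : Subgroup H} [N.Normal] (h1 : Small t N) (h2 : Small t (H ⧸ N)) : Small t H := by
  refine Small.of_ker (QuotientGroup.mk' N) ?_ h2
  refine h1.congr (MulEquiv.subgroupCongr (QuotientGroup.ker_mk' N).symm)

theorem Small.inf {M N : Subgroup H} [M.Normal] [N.Normal] (h1 : Small t (H ⧸ M)) (h2 : Small t (H ⧸ N)) :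
    Small t (H ⧸ (M ⊓ N)) := by
  let φ : H ⧸ (M ⊓ N) →* H ⧸ M := QuotientGroup.map (M ⊓ N) M (MonoidHom.id H) (fun _ h => h.1)
  refine Small.of_ker φ ?_ h1
  let ψ : H ⧸ (M ⊓ N) →* H ⧸ N := QuotientGroup.map (M ⊓ N) N (MonoidHom.id H) (fun _ h => h.2)
  refine h2.of_injective (ψ.comp φ.ker.subtype) ?_
  rw [injective_iff_map_eq_one]
  rintro ⟨a, ha⟩ h3
  obtain ⟨x, rfl⟩ := QuotientGroup.mk_surjective a
  have h4 : x ∈ M := by
    rw [MonoidHom.mem_ker] at ha
    exact (QuotientGroup.eq_one_iff x).1 ha
  have h5 : x ∈ N := (QuotientGroup.eq_one_iff x).1 h3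
  apply Subtype.ext
  exact (QuotientGroup.eq_one_iff x).2 ⟨h4, h5⟩

/-- the residual, as a subgroup of `H` -/
def resH (t : ℕ) (H : Type u) [Group H] : Subgroup H := sInf {N | ∃ _ : N.Normal, Small t (H ⧸ N)}

theorem resH_le {N : Subgroup H} [N.Normal] (h : Small t (H ⧸ N)) : resH t H ≤ N := sInf_le ⟨inferInstance, h⟩

theorem resH_mem [Finite H] : ∃ _ : (resH t H).Normal, Small t (H ⧸ resH t H) := by
  classical
  have hne : ({N | ∃ _ : N.Normal, Small t (H ⧸ N)} : Set (Subgroup H)).Nonempty := by
    refine ⟨⊤, inferInstance, ?_⟩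
    haveI := QuotientGroup.subsingleton_quotient_top (G := H)
    exact small_of_isSolvable inferInstance
  have hfin : ({N | ∃ _ : N.Normal, Small t (H ⧸ N)} : Set (Subgroup H)).Finite := Set.toFinite _
  obtain ⟨N, hN⟩ := hfin.exists_minimal hne
  obtain ⟨hn, hs⟩ := hN.prop
  have h1 : resH t H = N := by
    refine le_antisymm (sInf_le hN.prop) (le_sInf ?_)
    rintro M ⟨hm, hM⟩
    have h2 : N ⊓ M ∈ ({N | ∃ _ : N.Normal, Small t (H ⧸ N)} : Set (Subgroup H)) :=
      ⟨inferInstance, hs.inf hM⟩
    exact (hN.le_of_le h2 inf_le_left).trans inf_le_right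
  rw [h1]
  exact hN.prop

instance resH_normal [Finite H] : (resH t H).Normal := resH_mem.1

theorem small_quot_resH [Finite H] : Small t (H ⧸ resH t H) := resH_mem.2

theorem resH_map_equiv_le (e : H ≃* K) : (resH t H).map e.toMonoidHom ≤ resH t K := by
  rw [Subgroup.map_le_iff_le_comap]
  intro h hh
  rw [Subgroup.mem_comap]
  refine Subgroup.mem_sInf.2 ?_
  rintro N ⟨hn, hN⟩
  haveI := hn
  have h2 : (N.comap e.toMonoidHom).Normal := inferInstance
  have e' : (K ⧸ N) ≃* (H ⧸ N.comap e.toMonoidHom) :=
    QuotientGroup.congr N (N.comap e.toMonoidHom) e.symm (by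
      ext y
      constructor
      · rintro ⟨z, hz, rfl⟩
        change e (e.symm z) ∈ N
        rw [e.apply_symm_apply]
        exact hz
      · intro hy
        exact ⟨e y, hy, e.symm_apply_apply y⟩)
  have h3 : resH t H ≤ N.comap e.toMonoidHom := resH_le (hN.congr e')
  exact h3 hh

theorem resH_map_equiv (e : H ≃* K) : (resH t H).map e.toMonoidHom = resH t K := by
  refine le_antisymm (resH_map_equiv_le e) ?_
  intro y hy
  have h1 := resH_map_equiv_le (t := t) e.symm
  have h2 : e.symm y ∈ resH t H := h1 ⟨y, hy, rfl⟩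
  exact ⟨e.symm y, h2, e.apply_symm_apply y⟩

theorem resH_char : (resH t H).Characteristic := by
  rw [Subgroup.characteristic_iff_map_eq]
  intro φ
  exact resH_map_equiv φ

/-- a homomorphism into a small group kills the residual -/
theorem resH_le_ker (f : H →* K) (hK : Small t K) : resH t H ≤ f.ker := by
  haveI : f.ker.Normal := inferInstance
  refine resH_le ?_
  exact (hK.of_injective f.range.subtype f.range.subtype_injective).congr
    (QuotientGroup.quotientKerEquivRange f).symm

/-- the residual is perfect for residuals -/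
theorem resH_resH [Finite H] : resH t (resH t H) = ⊤ := by
  haveI hn : (resH t (resH t H)).Normal := resH_normal
  have hc : (resH t (resH t H)).Characteristic := resH_char
  have hn2 : ((resH t (resH t H)).map (resH t H).subtype).Normal := inferInstance
  set N := (resH t (resH t H)).map (resH t H).subtype with hN
  have hle : N ≤ resH t H := Subgroup.map_subtype_le _
  -- `H/N` is small: extension of `H/resH` by `resH/resH(resH)`
  have h1 : Small t (H ⧸ N) := by
    let φ : H ⧸ N →* H ⧸ resH t H := QuotientGroup.map N (resH t H) (MonoidHom.id H) (fun _ h => hle h)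
    refine Small.of_ker φ ?_ small_quot_resH
    -- the kernel is an image of `resH t H` with kernel containing `resH (resH)`
    let ψ : resH t H →* φ.ker :=
      { toFun := fun a => ⟨QuotientGroup.mk (a : H), by
          rw [MonoidHom.mem_ker]
          exact (QuotientGroup.eq_one_iff (a : H)).2 a.2⟩
        map_one' := rfl
        map_mul' := fun _ _ => rfl }
    have hψ : Function.Surjective ψ := by
      rintro ⟨a, ha⟩
      obtain ⟨x, rfl⟩ := QuotientGroup.mk_surjective a
      rw [MonoidHom.mem_ker] at ha
      exact ⟨⟨x, (QuotientGroup.eq_one_iff x).1 ha⟩, rfl⟩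
    have hk : resH t (resH t H) ≤ ψ.ker := by
      intro a ha
      rw [MonoidHom.mem_ker]
      apply Subtype.ext
      exact (QuotientGroup.eq_one_iff (a : H)).2 ⟨a, ha, rfl⟩
    let ψ' : (resH t H) ⧸ resH t (resH t H) →* φ.ker := QuotientGroup.lift _ ψ (fun a ha => hk ha)
    refine (small_quot_resH (t := t) (H := resH t H)).of_surjective ψ' ?_
    intro y
    obtain ⟨a, rfl⟩ := hψ y
    exact ⟨QuotientGroup.mk a, rfl⟩
  have h2 : resH t H ≤ N := resH_le h1
  rw [eq_top_iff]
  rintro ⟨a, ha⟩ -
  obtain ⟨b, hb, hba⟩ := h2 ha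
  have : b = ⟨a, ha⟩ := Subtype.ext hba
  rwa [← this]

/-- `A` small, acted on by a group all of whose small quotients are trivial: trivial action (map form) -/
theorem hom_resH_trivial [Finite H] (f : resH t H →* K) (hK : Small t K) (a : resH t H) : f a = 1 := by
  have h1 := resH_le_ker f hK
  rw [resH_resH] at h1
  exact MonoidHom.mem_ker.1 (h1 (Subgroup.mem_top a))

theorem small_of_isPGroup [Finite H] {p : ℕ} [Fact p.Prime] (h : IsPGroup p H) : Small t H := by
  haveI := h.isNilpotent
  exact small_of_isSolvable inferInstance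

theorem small_of_card_lt [Finite H] (h : Nat.card H < t) : Small t H := by
  intro A S _ _ g hg hne
  exact lt_of_le_of_lt ((Nat.card_le_card_of_surjective g hg).trans (Nat.card_le_card_of_injective _
    A.subtype_injective)) h

end

end Cfsg.Agent.R2.T3544
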