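import Cfsg.Agent.R2.T3544.Loc31
import Cfsg.Agent.R2.T3544.LemD

/-!
# S3544, LOC: helper5's lemma (F)

`Or r X = O^r(X)`: generated by the elements of `X` of order prime to `r`.
A functor `1 ≠ K = O^r(K)` is never contained in `M_a(x)` at a neighbour.
-/

set_option autoImplicit false

namespace Cfsg.Agent.R2.T3544

open Subgroup MulAction Cfsg
open scoped commutatorElement

section

variable {G : Type*} [Group G] {r : ℕ}

/-- `O^r(X)` -/
def Or (r : ℕ) (X : Subgroup G) : Subgroup G := closure {k | k ∈ X ∧ (orderOf k).Coprime r}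

theorem mem_Or {X : Subgroup G} {k : G} (hk : k ∈ X) (hc : (orderOf k).Coprime r) : k ∈ Or r X :=
  subset_closure ⟨hk, hc⟩

theorem Or_le (r : ℕ) (X : Subgroup G) : Or r X ≤ X := (closure_le X).2 fun _ h => h.1

theorem Or_le_iff {X K : Subgroup G} : Or r X ≤ K ↔ ∀ k ∈ X, (orderOf k).Coprime r → k ∈ K := by
  constructor
  · exact fun h k hk hc => h (mem_Or hk hc)
  · intro h
    refine (closure_le K).2 ?_
    rintro k ⟨hk, hc⟩
    exact h k hk hc

theorem Or_mono {X Y : Subgroup G} (h : X ≤ Y) : Or r X ≤ Or r Y :=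
  Or_le_iff.2 fun _ hk hc => mem_Or (h hk) hc

theorem Or_Or (r : ℕ) (X : Subgroup G) : Or r (Or r X) = Or r X :=
  le_antisymm (Or_le _ _) (Or_le_iff.2 fun _ hk hc => mem_Or (mem_Or hk hc) hc)

theorem Or_map_conj (r : ℕ) (X : Subgroup G) (g : G) :
    (Or r X).map (MulAut.conj g).toMonoidHom = Or r (X.map (MulAut.conj g).toMonoidHom) := by
  have key : ∀ (X : Subgroup G) (g : G), (Or r X).map (MulAut.conj g).toMonoidHom ≤
      Or r (X.map (MulAut.conj g).toMonoidHom) := by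
    intro X g
    rw [Subgroup.map_le_iff_le_comap]
    refine Or_le_iff.2 fun k hk hc => ?_
    refine mem_Or (mem_map_of_mem _ hk) ?_
    have h1 : orderOf ((MulAut.conj g).toMonoidHom k) = orderOf k :=
      orderOf_injective (MulAut.conj g).toMonoidHom (MulAut.conj g).injective k
    rw [h1]
    exact hc
  refine le_antisymm (key X g) ?_
  have h1 := map_mono (f := (MulAut.conj g).toMonoidHom) (key (X.map (MulAut.conj g).toMonoidHom) g⁻¹)
  have h2 : (X.map (MulAut.conj g).toMonoidHom).map (MulAut.conj g⁻¹).toMonoidHom = X := by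
    rw [Subgroup.map_map]
    ext v
    simp [mul_assoc]
  have h3 := map_map_conj_inv (Or r (X.map (MulAut.conj g).toMonoidHom)) g⁻¹
  rw [h2] at h1
  rw [inv_inv] at h3
  rwa [h3] at h1

theorem norm_Or {X H : Subgroup G} (h : H ≤ normalizer (X : Set G)) : H ≤ normalizer (Or r X : Set G) := by
  refine le_normalizer_of_map_le fun g hg => ?_
  rw [Or_map_conj]
  refine Or_mono ?_
  rintro _ ⟨v, hv, rfl⟩
  exact (mem_normalizer_iff.1 (h hg) v).1 hv

/-- `X ≤ K N`, `N` an `r`-group normalizing `K`: `O^r(X) ≤ K` -/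
theorem Or_le_of_sup [Finite G] [Fact r.Prime] {X K N : Subgroup G} (hN : IsPGroup r N)
    (hn : N ≤ normalizer (K : Set G)) (h : X ≤ K ⊔ N) : Or r X ≤ K := by
  have h1 : K ⊔ N ≤ normalizer (K : Set G) := sup_le le_normalizer hn
  have h2 : K.relIndex (K ⊔ N) = K.relIndex N := by
    rw [sup_comm]
    exact relIndex_sup_nl hn
  obtain ⟨n, hn'⟩ := IsPGroup.iff_card.1 hN
  have h3 : K.relIndex N ∣ r ^ n := by
    rw [← hn']
    exact relIndex_dvd_card K N
  refine Or_le_iff.2 fun k hk hc => ?_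
  have h4 := pow_relIndex_mem h1 (h hk)
  rw [h2] at h4
  have h5 : (K.relIndex N).Coprime (orderOf k) :=
    Nat.Coprime.coprime_dvd_left h3 (Nat.Coprime.pow_left n hc.symm)
  exact mem_of_pow_coprime h5 h4 (by rw [pow_orderOf_eq_one]; exact K.one_mem)

/-- `O^r(X) = 1` only for `r`-groups -/
theorem isPGroup_of_Or_eq_bot [Finite G] [Fact r.Prime] {X : Subgroup G} (h : Or r X = ⊥) : IsPGroup r X := by
  rintro ⟨x, hx⟩
  obtain ⟨k, m, hm, hkm⟩ := Nat.exists_eq_pow_mul_and_not_dvd (n := orderOf x) (orderOf_pos x).ne' r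
    (Fact.out : r.Prime).ne_one
  refine ⟨k, ?_⟩
  have hcop : m.Coprime r := ((Nat.Prime.coprime_iff_not_dvd Fact.out).2 hm).symm
  have h3 : (x ^ r ^ k) ^ m = 1 := by rw [← pow_mul, ← hkm, pow_orderOf_eq_one]
  have h4 : x ^ r ^ k ∈ Or r X :=
    mem_Or (X.pow_mem hx _) (Nat.Coprime.coprime_dvd_left (orderOf_dvd_of_pow_eq_one h3) hcop)
  rw [h, mem_bot] at h4
  apply Subtype.ext
  simpa using h4

end

section

variable {G : Type*} [Group G] {Ω : Type*} [MulAction G Ω] {Q K : Ω → Subgroup G} {r : ℕ} {ra : Ω → Ω → Prop}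
  {da : ℕ}

theorem Fun.Or (hK : Fun G K) (r : ℕ) : Fun G (fun x => Or r (K x)) where
  le x := (Or_le r (K x)).trans (hK.le x)
  smul g x := by rw [hK.smul, Or_map_conj]

/-- **lemma (F)** -/
theorem RCore.not_le_Mk [Finite G] [Fact r.Prime] (h : RCore G r Q) (P : PP G Ω) (A : Dir G ra da)
    (hra : ¬ r ∣ da) (hK : Fun G K) (hKr : ∀ x, T3544.Or r (K x) = K x) {x y : Ω} (hxy : ra x y)
    (hne : K y ≠ ⊥) (hQ : Q y ≠ ⊥) : ¬ K y ≤ Mk G ra x := by
  intro h1
  refine h.WQ_not_le P A hra (A.symm hxy) hQ ?_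
  refine WQ_le fun z hz => ?_
  refine le_trans ?_ (hK.normalizer_le P hne)
  refine le_normalizer_of_map_le fun q hq => ?_
  have hQx : Q x ≤ stabilizer G y := h.nbr_le A hra (A.symm hxy)
  have h2 : (K y).map (MulAut.conj q).toMonoidHom ≤ K y ⊔ Q x := by
    rintro _ ⟨k, hk, rfl⟩
    have h3 : ⁅q, k⁆ ∈ Q x := h.comm_Mk_le A hra hz (commutator_mem_commutator hq (h1 hk))
    have h4 : (MulAut.conj q).toMonoidHom k = ⁅q, k⁆ * k := by
      show q * k * q⁻¹ = _
      rw [commutatorElement_def]; group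
    rw [h4]
    exact mul_mem ((le_sup_right : Q x ≤ K y ⊔ Q x) h3) ((le_sup_left : K y ≤ K y ⊔ Q x) hk)
  have h5 := Or_le_of_sup (h.pg x) (hQx.trans (hK.norm y)) h2
  rwa [← Or_map_conj, hKr] at h5

end

end Cfsg.Agent.R2.T3544
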