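import Cfsg.Agent.R2.T3544.Fun
import Cfsg.Agent.PLocal.SubnormalCore
import Cfsg.Agent.Lib.Cores

/-!
# S3544: the `r`-core at neighbouring points (FACTS 3.1, 3.2)

`RCore G r Q`: `Q x = O_r(G_x)` in the form needed: `Q` is a functor, `Q x` is an `r`-group containing all subnormal
`r`-subgroups of `G_x`.  `WQ ρ Q x = ⟨Q y : y ~ x⟩`.
-/

set_option autoImplicit false

namespace Cfsg.Agent.R2.T3544

open Subgroup MulAction Cfsg
open scoped commutatorElement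

variable {G : Type*} [Group G] {Ω : Type*} [MulAction G Ω] {Q : Ω → Subgroup G}

/-- `Q x = O_r(G_x)` -/
structure RCore (G : Type*) [Group G] {Ω : Type*} [MulAction G Ω] (r : ℕ) (Q : Ω → Subgroup G) : Prop where
  fn : Fun G Q
  pg : ∀ x, IsPGroup r (Q x)
  max : ∀ {x : Ω} {K : Subgroup G}, SubnIn K (stabilizer G x) → IsPGroup r K → K ≤ Q x

/-- existence -/
theorem RCore.exist (G : Type*) [Group G] [Finite G] (Ω : Type*) [MulAction G Ω] (r : ℕ) :
    RCore G r (fun x : Ω => (pCore r (stabilizer G x)).map (stabilizer G x).subtype) where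
  fn := Fun.of_iso (fun K _ => pCore r K) fun K L _ _ e => (Cfsg.Agent.Lib.Cores.map_equiv_pCore e r).le
  pg x := (Cfsg.Agent.Lib.Cores.pCore_isPGroup r).map _
  max {x K} hK hp := by
    have h1 : K.subgroupOf (stabilizer G x) ≤ pCore r (stabilizer G x) :=
      Cfsg.Agent.PLocal.SubnormalCore.le_pCore_of_isSubnormal hK.2
        (hp.comap_of_injective (stabilizer G x).subtype (subtype_injective _))
    have h2 := map_mono (f := (stabilizer G x).subtype) h1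
    rwa [map_subgroupOf_eq_of_le hK.1] at h2

/-- an `r`-group has no proper subgroup of index dividing `d` for `r ∤ d` -/
theorem not_hasIdx_of_isPGroup [Finite G] {r d : ℕ} [Fact r.Prime] (hr : ¬ r ∣ d) {K : Subgroup G}
    (hK : IsPGroup r K) : ¬ HasIdx K d := by
  rintro ⟨C, hC, hd⟩
  obtain ⟨n, hn⟩ := hK.index C
  rcases Nat.eq_zero_or_pos n with h0 | h0
  · rw [h0, pow_zero, index_eq_one] at hn
    exact hC hn
  · apply hr
    refine dvd_trans ?_ hd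
    rw [hn]
    exact dvd_pow_self r h0.ne'

/-- two subgroups normalizing each other: the commutator is in the intersection -/
theorem comm_le_inf {A B : Subgroup G} (h1 : A ≤ normalizer (B : Set G)) (h2 : B ≤ normalizer (A : Set G)) :
    ⁅A, B⁆ ≤ A ⊓ B := by
  rw [commutator_le]
  intro a ha b hb
  rw [commutatorElement_def]
  refine ⟨?_, ?_⟩
  · have h3 := (mem_normalizer_iff.1 (h2 hb) a⁻¹).1 (A.inv_mem ha)
    have e : a * b * a⁻¹ * b⁻¹ = a * (b * a⁻¹ * b⁻¹) := by group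
    rw [e]
    exact A.mul_mem ha h3
  · exact B.mul_mem ((mem_normalizer_iff.1 (h1 ha) b).1 hb) (B.inv_mem hb)

/-- commutators of joins modulo `N` -/
theorem iSup_comm_le {ι κ : Sort*} {A : ι → Subgroup G} {B : κ → Subgroup G} {N : Subgroup G}
    (hA : ∀ i, A i ≤ normalizer (N : Set G)) (hB : ∀ j, B j ≤ normalizer (N : Set G))
    (h : ∀ i j, ⁅A i, B j⁆ ≤ N) : ⁅⨆ i, A i, ⨆ j, B j⁆ ≤ N := by
  set H := normalizer (N : Set G) with hH
  have hNn : (N.subgroupOf H).Normal := by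
    rw [normal_subgroupOf_iff_le_normalizer le_normalizer]
  have hAH : (⨆ i, A i) ≤ H := iSup_le hA
  have hBH : (⨆ j, B j) ≤ H := iSup_le hB
  have hsA : (⨆ i, A i).subgroupOf H = ⨆ i, (A i).subgroupOf H := by
    apply le_antisymm
    · intro x hx
      have h1 : (⨆ i, A i) ≤ (⨆ i, (A i).subgroupOf H).map H.subtype := by
        refine iSup_le fun i => ?_
        rw [← map_subgroupOf_eq_of_le (hA i)]
        exact map_mono (le_iSup (fun i => (A i).subgroupOf H) i)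
      obtain ⟨y, hy, hyx⟩ := h1 (mem_subgroupOf.1 hx)
      have : y = x := H.subtype_injective hyx
      rwa [← this]
    · exact iSup_le fun i => comap_mono (le_iSup A i)
  have hsB : (⨆ j, B j).subgroupOf H = ⨆ j, (B j).subgroupOf H := by
    apply le_antisymm
    · intro x hx
      have h1 : (⨆ j, B j) ≤ (⨆ j, (B j).subgroupOf H).map H.subtype := by
        refine iSup_le fun j => ?_
        rw [← map_subgroupOf_eq_of_le (hB j)]
        exact map_mono (le_iSup (fun j => (B j).subgroupOf H) j)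
      obtain ⟨y, hy, hyx⟩ := h1 (mem_subgroupOf.1 hx)
      have : y = x := H.subtype_injective hyx
      rwa [← this]
    · exact iSup_le fun j => comap_mono (le_iSup B j)
  have key : ⁅(⨆ i, A i).subgroupOf H, (⨆ j, B j).subgroupOf H⁆ ≤ N.subgroupOf H := by
    rw [hsA, hsB, Cfsg.Agent.Lib.Cores.iSup_commutator_le_iff]
    intro i
    rw [Cfsg.Agent.Lib.Cores.commutator_iSup_le_iff]
    intro j
    rw [commutator_le]
    intro a ha b hb
    exact h i j (commutator_mem_commutator (mem_subgroupOf.1 ha) (mem_subgroupOf.1 hb))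
  have h2 := map_mono (f := H.subtype) key
  rw [map_commutator, map_subgroupOf_eq_of_le hAH, map_subgroupOf_eq_of_le hBH,
    map_subgroupOf_eq_of_le (le_normalizer : N ≤ H)] at h2
  exact h2

/-- `W(x) = ⟨Q y : y ~ x⟩` -/
def WQ (ρ : Ω → Ω → Prop) (Q : Ω → Subgroup G) (x : Ω) : Subgroup G := ⨆ y, ⨆ (_ : ρ x y), Q y

theorem le_WQ {ρ : Ω → Ω → Prop} {x y : Ω} (h : ρ x y) : Q y ≤ WQ ρ Q x := le_iSup₂_of_le y h le_rfl

theorem WQ_le {ρ : Ω → Ω → Prop} {x : Ω} {K : Subgroup G} (h : ∀ y, ρ x y → Q y ≤ K) : WQ ρ Q x ≤ K :=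
  iSup₂_le h

section

variable [Finite G] {r : ℕ} {ra rb : Ω → Ω → Prop} {da db : ℕ}

/-- 3.1: `Q_x ≤ M_a(x)` -/
theorem RCore.le_Mk (h : RCore G r Q) (A : Dir G ra da) [Fact r.Prime] (hr : ¬ r ∣ da) (x : Ω) : Q x ≤ Mk G ra x :=
  A.le_Mk_of_subn (SubnIn.of_normal (h.fn.le x) (h.fn.norm x)) (not_hasIdx_of_isPGroup hr (h.pg x))

/-- 3.1: `Q_y ≤ G_x` for `y ~_a x` -/
theorem RCore.nbr_le (h : RCore G r Q) (A : Dir G ra da) [Fact r.Prime] (hr : ¬ r ∣ da) {x y : Ω} (hy : ra x y) :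
    Q y ≤ stabilizer G x :=
  (h.le_Mk A hr y).trans (Mk_le_nbr (A.symm hy))

/-- 3.1: `Q_y ≤ M_b(x)` for `y ~_a x` -/
theorem RCore.nbr_le_Mk (h : RCore G r Q) (A : Dir G ra da) (B : Dir G rb db) (hc : da.Coprime db)
    [Fact r.Prime] (hra : ¬ r ∣ da) (hrb : ¬ r ∣ db) {x y : Ω} (hy : ra x y) : Q y ≤ Mk G rb x :=
  A.le_Mk_of_subn' B hc hy (SubnIn.of_normal (h.fn.le y) (h.fn.norm y)) (h.nbr_le A hra hy)
    (not_hasIdx_of_isPGroup hrb (h.pg y))

/-- `Q_y ∩ K ≤ Q_x` for a subgroup `K` of `G_y`, subnormal in `G_x` -/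
theorem RCore.inf_le_of_subn (h : RCore G r Q) {x y : Ω} {K : Subgroup G} (hK : SubnIn K (stabilizer G x))
    (hKy : K ≤ stabilizer G y) : Q y ⊓ K ≤ Q x := by
  have h1 : SubnIn (Q y ⊓ K) K := by
    have h2 := (SubnIn.of_normal (h.fn.le y) (h.fn.norm y)).inf K
    rwa [inf_eq_right.2 hKy] at h2
  exact h.max (h1.trans hK) ((h.pg y).to_le inf_le_left)

/-- 3.1: `Q_y ∩ M_a(x) ≤ Q_x` for `y ~_a x` -/
theorem RCore.inf_Mk_le (h : RCore G r Q) (A : Dir G ra da) {x y : Ω} (hy : ra x y) : Q y ⊓ Mk G ra x ≤ Q x :=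
  h.inf_le_of_subn (SubnIn.of_normal (Mk_le ra x) (A.Mk_norm x)) (Mk_le_nbr hy)

/-- 3.1: `[M_a(x), Q_y] ≤ Q_x` for `y ~_a x` -/
theorem RCore.comm_Mk_le (h : RCore G r Q) (A : Dir G ra da) [Fact r.Prime] (hr : ¬ r ∣ da) {x y : Ω}
    (hy : ra x y) : ⁅Q y, Mk G ra x⁆ ≤ Q x := by
  refine (comm_le_inf ?_ ?_).trans (h.inf_Mk_le A hy)
  · exact (h.nbr_le A hr hy).trans (A.Mk_norm x)
  · exact (Mk_le_nbr hy).trans (h.fn.norm y)

/-- 3.1: `[W_a(x), M_a(x)] ≤ Q_x` -/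
theorem RCore.comm_WQ_Mk (h : RCore G r Q) (A : Dir G ra da) [Fact r.Prime] (hr : ¬ r ∣ da) (x : Ω) :
    ⁅WQ ra Q x, Mk G ra x⁆ ≤ Q x := by
  have h1 := iSup_comm_le (A := fun y : {y // ra x y} => Q y.1) (B := fun _ : Unit => Mk G ra x) (N := Q x)
    (fun y => (h.nbr_le A hr y.2).trans (h.fn.norm x)) (fun _ => (Mk_le ra x).trans (h.fn.norm x))
    (fun y _ => h.comm_Mk_le A hr y.2)
  rw [iSup_subtype] at h1
  simpa [WQ] using h1

theorem RCore.WQ_le_Mk (h : RCore G r Q) (A : Dir G ra da) (B : Dir G rb db) (hc : da.Coprime db)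
    [Fact r.Prime] (hra : ¬ r ∣ da) (hrb : ¬ r ∣ db) (x : Ω) : WQ ra Q x ≤ Mk G rb x :=
  WQ_le fun _ hy => h.nbr_le_Mk A B hc hra hrb hy

theorem RCore.WQ_le_stab (h : RCore G r Q) (A : Dir G ra da) [Fact r.Prime] (hra : ¬ r ∣ da) (x : Ω) :
    WQ ra Q x ≤ stabilizer G x :=
  WQ_le fun _ hy => h.nbr_le A hra hy

/-- 3.1: `[W_a(x), W_b(x)] ≤ Q_x` -/
theorem RCore.comm_WQ (h : RCore G r Q) (A : Dir G ra da) (B : Dir G rb db) (hc : da.Coprime db)
    [Fact r.Prime] (hra : ¬ r ∣ da) (hrb : ¬ r ∣ db) (x : Ω) : ⁅WQ ra Q x, WQ rb Q x⁆ ≤ Q x :=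
  (commutator_mono le_rfl (h.WQ_le_Mk B A hc.symm hrb hra x)).trans (h.comm_WQ_Mk A hra x)

/-- 3.1: `Q_y ∩ Q_w ≤ Q_x` for `y ~_a x ~_b w` -/
theorem RCore.inf_nbr_le (h : RCore G r Q) (A : Dir G ra da) (B : Dir G rb db) (hc : da.Coprime db)
    [Fact r.Prime] (hra : ¬ r ∣ da) (hrb : ¬ r ∣ db) {x y w : Ω} (hy : ra x y) (hw : rb x w) : Q y ⊓ Q w ≤ Q x :=
  (inf_le_inf_left _ (h.nbr_le_Mk B A hc.symm hrb hra hw)).trans (h.inf_Mk_le A hy)

/-- `W` is a functor -/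
theorem WQ_map_le (hQ : Fun G Q) (A : Dir G ra da) (g : G) (x : Ω) :
    (WQ ra Q x).map (MulAut.conj g).toMonoidHom ≤ WQ ra Q (g • x) := by
  unfold WQ
  rw [Subgroup.map_iSup]
  refine iSup_le fun y => ?_
  rw [Subgroup.map_iSup]
  refine iSup_le fun hy => ?_
  rw [← hQ.smul]
  exact le_WQ (A.smul g hy)

theorem RCore.WQ_fun (h : RCore G r Q) (A : Dir G ra da) [Fact r.Prime] (hra : ¬ r ∣ da) : Fun G (WQ ra Q) where
  le := h.WQ_le_stab A hra
  smul g x := by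
    refine le_antisymm ?_ (WQ_map_le h.fn A g x)
    have h1 := map_mono (f := (MulAut.conj g).toMonoidHom) (WQ_map_le h.fn A g⁻¹ (g • x))
    rw [inv_smul_smul] at h1
    refine le_trans (le_of_eq ?_) h1
    have h2 := map_map_conj_inv (WQ ra Q (g • x)) g⁻¹
    rw [inv_inv] at h2
    exact h2.symm

/-- 3.2: `Q_x` is not contained in a normal subgroup `K ≤ G_x` of `G_y`, `y ~ x` -/
theorem RCore.not_le_of_normal (h : RCore G r Q) (P : PP G Ω) (A : Dir G ra da) {x y : Ω} (hy : ra x y)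
    (hne : Q x ≠ ⊥) {K : Subgroup G} (hK : SubnIn K (stabilizer G y)) (hKx : K ≤ stabilizer G x) : ¬ Q x ≤ K := by
  intro h1
  have h2 : Q x ⊓ K ≤ Q y := h.inf_le_of_subn hK hKx
  rw [inf_eq_left.2 h1] at h2
  exact h.fn.not_le P A hy hne h2

/-- 3.2: `W_a(x)` is not in `M_a(x)` -/
theorem RCore.WQ_not_le_Mk (h : RCore G r Q) (P : PP G Ω) (A : Dir G ra da) {x : Ω} (hne : Q x ≠ ⊥) :
    ¬ WQ ra Q x ≤ Mk G ra x := by
  intro h1
  obtain ⟨y, hy⟩ := A.ex x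
  have h2 := h.inf_Mk_le A hy
  rw [inf_eq_left.2 ((le_WQ hy).trans h1)] at h2
  exact h.fn.not_le P A (A.symm hy) (h.fn.ne_bot P hne y) h2

/-- 3.2: `W_a(y)` is not in `G_x`, `y ~_a x` -/
theorem RCore.WQ_not_le (h : RCore G r Q) (P : PP G Ω) (A : Dir G ra da) [Fact r.Prime] (hra : ¬ r ∣ da)
    {x y : Ω} (hy : ra x y) (hne : Q x ≠ ⊥) : ¬ WQ ra Q y ≤ stabilizer G x := by
  intro h1
  have h2 := h.WQ_fun A hra
  exact h.not_le_of_normal P A hy hne (SubnIn.of_normal (h2.le y) (h2.norm y)) h1 (le_WQ (A.symm hy))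

end

end Cfsg.Agent.R2.T3544
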