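import Cfsg.Agent.R2.T3544.LemD
import Cfsg.Agent.R2.T3544.CopLem
import Cfsg.Agent.R2.T3544.NLc
import Cfsg.Agent.R2.T3544.NLcIn

/-!
# S3544: the coprime functor theorem, without hypotheses
-/

set_option autoImplicit false

namespace Cfsg.Agent.R2.T3544

open Subgroup MulAction

variable {G : Type*} [Group G] [Finite G]

theorem lemDStmt : LemDStmt G := by
  intro O X N2 L H d1 d2 hX hc hs hi hd h2 hn hC hL hH ha
  have h : DSet O X (O ⊓ centralizer (X : Set G)) ⁅O, X⁆ N2 d1 d2 :=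
    ⟨hX, rfl, rfl, CopLem.comm_comm hX hc hs, h2, hn, hi, hd⟩
  exact lemD h hL hC hH ha

variable {Ω : Type*} [MulAction G Ω] {ra rb : Ω → Ω → Prop} {da db : ℕ} {X O : Ω → Subgroup G}

/-- coprime functors `X`, `O`, both nontrivial, `X` soluble, `O(x) ∩ G_y ≤ O(y)`: impossible -/
theorem false_of_coprime_functors [Nonempty Ω]
    (P : PP G Ω) (A : Dir G ra da) (B : Dir G rb db) (hc : da.Coprime db)
    (FX : Fun G X) (FO : Fun G O) (X1 : ∀ x, X x ≠ ⊥) (O1 : ∀ x, O x ≠ ⊥)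
    (cop : ∀ x y, (Nat.card (X x)).Coprime (Nat.card (O y)))
    (hXa : ∀ x, (Nat.card (X x)).Coprime da) (hXb : ∀ x, (Nat.card (X x)).Coprime db)
    (sol : ∀ x, Group.IsSolvable (X x))
    (sha : ∀ {x y : Ω}, ra x y → O x ⊓ stabilizer G y ≤ O y)
    (shb : ∀ {x y : Ω}, rb x y → O x ⊓ stabilizer G y ≤ O y) : False :=
  false_of_functorsU lemDStmt coverStmt residStmt topStmt P A B hc FX FO X1 O1 cop hXa hXb sol sha shb

/-- the same with the sharing hypotheses in the structure `XU` -/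
theorem false_of_XU' [Nonempty Ω] (P : PP G Ω) (A : Dir G ra da) (B : Dir G rb db) (hc : da.Coprime db)
    (ha : XU G ra X O) (hb : XU G rb X O)
    (hma : ∀ {x y : Ω}, ra x y → X y ≤ Mk G rb x) (hmb : ∀ {x y : Ω}, rb x y → X y ≤ Mk G ra x) : False :=
  false_of_XU lemDStmt coverStmt residStmt topStmt P A B hc ha hb hma hmb

end Cfsg.Agent.R2.T3544
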