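import Cfsg.Agent.R2.T3544.Edge

/-!
# S3544, LOC: no sharing (helper13's theorem (nu'))

`XQ x = C_{G_x}(L(x)/Q_x)`.
-/

set_option autoImplicit false

namespace Cfsg.Agent.R2.T3544

open Subgroup MulAction Cfsg
open scoped commutatorElement

section

variable {G : Type*} [Group G] {Ω : Type*} [MulAction G Ω] {Q K E : Ω → Subgroup G} {r : ℕ}
  {ra rb : Ω → Ω → Prop} {da db : ℕ}

theorem norm_inf_ns {O A B : Subgroup G} (hA : O ≤ normalizer (A : Set G)) (hB : O ≤ normalizer (B : Set G)) :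
    O ≤ normalizer ((A ⊓ B : Subgroup G) : Set G) := by
  refine le_normalizer_of_map_le fun g hg => ?_
  rintro _ ⟨k, hk, rfl⟩
  exact ⟨(mem_normalizer_iff.1 (hA hg) k).1 hk.1, (mem_normalizer_iff.1 (hB hg) k).1 hk.2⟩

theorem norm_sup_ns {O A B : Subgroup G} (hA : O ≤ normalizer (A : Set G)) (hB : O ≤ normalizer (B : Set G)) :
    O ≤ normalizer ((A ⊔ B : Subgroup G) : Set G) := by
  refine le_normalizer_of_map_le fun g hg => ?_
  rw [Subgroup.map_sup]
  refine sup_le_sup ?_ ?_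
  · rintro _ ⟨k, hk, rfl⟩
    exact (mem_normalizer_iff.1 (hA hg) k).1 hk
  · rintro _ ⟨k, hk, rfl⟩
    exact (mem_normalizer_iff.1 (hB hg) k).1 hk

/-- `X_a(x)`: the largest subgroup of `G_x` with `[X, L_a(x)] ≤ Q_x` -/
def XQ (G : Type*) [Group G] {Ω : Type*} [MulAction G Ω] (r : ℕ) (Q : Ω → Subgroup G) (ρ : Ω → Ω → Prop) (x : Ω) :
    Subgroup G :=
  ⨆ K : {K : Subgroup G // K ≤ stabilizer G x ∧ ⁅K, LQ G r ρ x⁆ ≤ Q x}, K.1

theorem XQ_le (x : Ω) : XQ G r Q ra x ≤ stabilizer G x := iSup_le fun K => K.2.1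

theorem le_XQ {x : Ω} {K : Subgroup G} (h1 : K ≤ stabilizer G x) (h2 : ⁅K, LQ G r ra x⁆ ≤ Q x) :
    K ≤ XQ G r Q ra x :=
  le_iSup (fun K : {K : Subgroup G // K ≤ stabilizer G x ∧ ⁅K, LQ G r ra x⁆ ≤ Q x} => K.1) ⟨K, h1, h2⟩

variable [Finite G] [Fact r.Prime]

omit [Finite G] [Fact r.Prime] in
theorem RCore.comm_XQ (h : RCore G r Q) (x : Ω) : ⁅XQ G r Q ra x, LQ G r ra x⁆ ≤ Q x := by
  have h1 := iSup_comm_le (A := fun K : {K : Subgroup G // K ≤ stabilizer G x ∧ ⁅K, LQ G r ra x⁆ ≤ Q x} => K.1)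
    (B := fun _ : Unit => LQ G r ra x) (N := Q x) (fun K => K.2.1.trans (h.fn.norm x))
    (fun _ => (LQ_le_stab r ra x).trans (h.fn.norm x)) (fun K _ => K.2.2)
  simpa [XQ] using h1

theorem RCore.XQ_fun (h : RCore G r Q) (A : Dir G ra da) : Fun G (XQ G r Q ra) :=
  Fun.of_map_le (fun x => XQ_le x) fun g x => by
    refine le_XQ ?_ ?_
    · rw [stab_smul]
      exact map_mono (XQ_le x)
    · rw [(LQ_fun A).smul, h.fn.smul, ← map_commutator]
      exact map_mono (h.comm_XQ x)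

theorem RCore.XQ_norm (h : RCore G r Q) (A : Dir G ra da) (x : Ω) :
    stabilizer G x ≤ normalizer (XQ G r Q ra x : Set G) := (h.XQ_fun A).norm x

theorem RCore.Mk_le_XQ (h : RCore G r Q) (A : Dir G ra da) (x : Ω) : Mk G ra x ≤ XQ G r Q ra x :=
  le_XQ (Mk_le ra x) (by rw [commutator_comm]; exact h.comm_LQ_Mk A x)

theorem RCore.LQ_le_XQ (h : RCore G r Q) (A : Dir G ra da) (B : Dir G rb db) (hc : da.Coprime db)
    (hra : ¬ r ∣ da) (x : Ω) : LQ G r rb x ≤ XQ G r Q ra x :=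
  (LQ_le_Mk B A hc.symm hra x).trans (h.Mk_le_XQ A x)

/-- `X_a(y) ∩ O_xy ≤ Q_y` -/
theorem RCore.EQ_inf_XQ_le (h : RCore G r Q) (A : Dir G ra da) (hra : ¬ r ∣ da) {x y : Ω} (hxy : ra x y) :
    EQ G r x y ⊓ XQ G r Q ra y ≤ Q y := by
  have h0 : EQ G r x y ≤ LQ G r ra y := by
    rw [EQ_comm]; exact le_LQ (A.symm hxy)
  have h1 : XQ G r Q ra y ≤ normalizer (EQ G r x y : Set G) := by
    refine le_normalizer_of_map_le fun g hg => ?_
    rintro _ ⟨k, hk, rfl⟩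
    have h2 : ⁅g, k⁆ ∈ Q y := h.comm_XQ y (commutator_mem_commutator hg (h0 hk))
    have h3 : (MulAut.conj g).toMonoidHom k = ⁅g, k⁆ * k := by
      show g * k * g⁻¹ = _
      rw [commutatorElement_def]; group
    rw [h3]
    exact mul_mem (h.le_EQ' A hra hxy h2) hk
  have h4 : SubnIn (EQ G r x y ⊓ XQ G r Q ra y) (XQ G r Q ra y) :=
    SubnIn.of_normal inf_le_right (norm_inf_ns h1 le_normalizer)
  exact h.max (h4.trans (SubnIn.of_normal (XQ_le y) (h.XQ_norm A y))) ((EQ_isPGroup x y).to_le inf_le_left)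

/-- (1): `L_b(x) ∩ X_a(y) ≤ Q_x` if `G_x = X_b(x) G_xy` -/
theorem RCore.inf_XQ_le (h : RCore G r Q) (P : PP G Ω) (A : Dir G ra da) (B : Dir G rb db) (hc : da.Coprime db)
    (hra : ¬ r ∣ da) {x y : Ω} (hxy : ra x y) (hQ : Q x ≠ ⊥)
    (hnu : stabilizer G x ≤ XQ G r Q rb x ⊔ (stabilizer G x ⊓ stabilizer G y)) :
    LQ G r rb x ⊓ XQ G r Q ra y ≤ Q x := by
  set F : Subgroup G := LQ G r rb x ⊓ XQ G r Q ra y with hF
  have hQy : Q x ≤ stabilizer G y := h.nbr_le A hra (A.symm hxy)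
  have hFx : F ≤ stabilizer G x := inf_le_left.trans (LQ_le_stab r rb x)
  -- `G_xy` normalises `F`
  have h1 : stabilizer G x ⊓ stabilizer G y ≤ normalizer (F : Set G) :=
    norm_inf_ns (inf_le_left.trans ((LQ_fun B).norm x)) (inf_le_right.trans (h.XQ_norm A y))
  have hQF : Q x ≤ normalizer (F : Set G) := (le_inf (h.fn.le x) hQy).trans h1
  -- `G_x` normalises `F Q_x`
  have h2 : stabilizer G x ≤ normalizer ((F ⊔ Q x : Subgroup G) : Set G) := by
    refine hnu.trans (sup_le ?_ ?_)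
    · refine le_normalizer_of_map_le fun g hg => ?_
      rw [Subgroup.map_sup]
      refine sup_le ?_ ?_
      · rintro _ ⟨k, hk, rfl⟩
        have h3 : ⁅g, k⁆ ∈ Q x := h.comm_XQ x (commutator_mem_commutator hg (hk.1))
        have h4 : (MulAut.conj g).toMonoidHom k = ⁅g, k⁆ * k := by
          show g * k * g⁻¹ = _
          rw [commutatorElement_def]; group
        rw [h4]
        exact mul_mem ((le_sup_right : Q x ≤ F ⊔ Q x) h3) ((le_sup_left : F ≤ F ⊔ Q x) hk)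
      · rw [map_conj_eq_of_mem (h.fn.norm x (XQ_le x hg))]
        exact le_sup_right
    · exact norm_sup_ns h1 (inf_le_left.trans (h.fn.norm x))
  -- `K = O^r(F Q_x)`
  set K : Subgroup G := Or r (F ⊔ Q x) with hK
  have hKF : K ≤ F := Or_le_of_sup (h.pg x) hQF le_rfl
  have hKn : stabilizer G x ≤ normalizer (K : Set G) := norm_Or h2
  have hKK : Or r K = K := Or_Or r _
  have hbot : K = ⊥ := by
    by_contra hne
    have hN : normalizer (K : Set G) ≤ stabilizer G x := P.norm x K (hKF.trans hFx) hne hKn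
    have h5 : LQ G r ra y ≤ stabilizer G x := by
      refine le_trans ?_ hN
      refine le_normalizer_of_map_le fun q hq => ?_
      have hQyx : Q y ≤ stabilizer G x := h.nbr_le A hra hxy
      have h6 : K.map (MulAut.conj q).toMonoidHom ≤ K ⊔ Q y := by
        rintro _ ⟨k, hk, rfl⟩
        have h3 : ⁅k, q⁆ ∈ Q y := h.comm_XQ y (commutator_mem_commutator (hKF hk).2 hq)
        have h4 : (MulAut.conj q).toMonoidHom k = ⁅k, q⁆⁻¹ * k := by
          show q * k * q⁻¹ = _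
          rw [commutatorElement_def]; group
        rw [h4]
        exact mul_mem ((le_sup_right : Q y ≤ K ⊔ Q y) (inv_mem h3)) ((le_sup_left : K ≤ K ⊔ Q y) hk)
      have h7 := Or_le_of_sup (h.pg y) (hQyx.trans hKn) h6
      rwa [← Or_map_conj, hKK] at h7
    have h8 : EQ G r y x ⊓ LQ G r ra y ≤ Q y :=
      h.EQ_inf_le (SubnIn.of_normal (LQ_le_stab r ra y) ((LQ_fun A).norm y)) h5
    have h9 : Q x ≤ Q y :=
      (h.le_EQ' A hra (A.symm hxy)).trans ((le_inf le_rfl (le_LQ (A.symm hxy))).trans h8)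
    exact h.fn.not_le P A hxy hQ h9
  have hp : IsPGroup r (F ⊔ Q x : Subgroup G) := isPGroup_of_Or_eq_bot hbot
  exact le_sup_left.trans (h.max (SubnIn.of_normal (sup_le hFx (h.fn.le x)) h2) hp)

/-- (2): `X_a(y) ∩ G_x ≤ X_b(x)` -/
theorem RCore.XQ_inf_le (h : RCore G r Q) (P : PP G Ω) (A : Dir G ra da) (B : Dir G rb db) (hc : da.Coprime db)
    (hra : ¬ r ∣ da) {x y : Ω} (hxy : ra x y) (hQ : Q x ≠ ⊥)
    (hnu : stabilizer G x ≤ XQ G r Q rb x ⊔ (stabilizer G x ⊓ stabilizer G y)) :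
    XQ G r Q ra y ⊓ stabilizer G x ≤ XQ G r Q rb x := by
  refine le_XQ inf_le_right ?_
  have hLy : LQ G r rb x ≤ stabilizer G y :=
    (LQ_le_Mk B A hc.symm hra x).trans (Mk_le_nbr hxy)
  have h1 : ⁅LQ G r rb x, XQ G r Q ra y ⊓ stabilizer G x⁆ ≤ LQ G r rb x ⊓ XQ G r Q ra y := by
    rw [commutator_le]
    intro a ha b hb
    rw [commutatorElement_def]
    refine ⟨?_, ?_⟩
    · have h3 := (mem_normalizer_iff.1 ((LQ_fun B).norm x hb.2) a⁻¹).1 ((LQ G r rb x).inv_mem ha)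
      have h4 : a * b * a⁻¹ * b⁻¹ = a * (b * a⁻¹ * b⁻¹) := by group
      rw [h4]
      exact (LQ G r rb x).mul_mem ha h3
    · have h3 := (mem_normalizer_iff.1 (h.XQ_norm A y (hLy ha)) b).1 hb.1
      exact (XQ G r Q ra y).mul_mem h3 ((XQ G r Q ra y).inv_mem hb.1)
  rw [commutator_comm]
  exact h1.trans (h.inf_XQ_le P A B hc hra hxy hQ hnu)

end

end Cfsg.Agent.R2.T3544
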