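import Cfsg.Agent.R2.T3544.Loc31

/-!
# S3544, local case: elementary abelian subgroups of maximal order

`JE r Q = J(Q)` and `YE r Q = Ω₁ Z(J(Q))` (the intersection of the elementary abelian subgroups of maximal order), for
subgroups of an ambient group.
-/

set_option autoImplicit false
set_option linter.unusedSectionVars false

namespace Cfsg.Agent.R2.T3544

open Subgroup MulAction

variable {G : Type*} [Group G]

/-- elementary abelian -/
def IsEA (r : ℕ) (A : Subgroup G) : Prop := (∀ a ∈ A, ∀ b ∈ A, a * b = b * a) ∧ ∀ a ∈ A, a ^ r = 1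

/-- elementary abelian of maximal order in `Q` -/
def MaxEA (r : ℕ) (Q A : Subgroup G) : Prop :=
  A ≤ Q ∧ IsEA r A ∧ ∀ B ≤ Q, IsEA r B → Nat.card B ≤ Nat.card A

/-- the Thompson subgroup (elementary abelian version) -/
def JE (r : ℕ) (Q : Subgroup G) : Subgroup G := ⨆ A, ⨆ (_ : MaxEA r Q A), A

/-- `Ω₁ Z(J(Q))` -/
def YE (r : ℕ) (Q : Subgroup G) : Subgroup G := ⨅ A, ⨅ (_ : MaxEA r Q A), A

/-- best offender -/
def BestOff (A V : Subgroup G) : Prop :=
  ∀ B ≤ A, Nat.card B * Nat.card (V ⊓ centralizer (B : Set G) : Subgroup G) ≤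
    Nat.card A * Nat.card (V ⊓ centralizer (A : Set G) : Subgroup G)

/-- `R` is a Sylow `r`-subgroup of `S` -/
def SylIn (r : ℕ) (S R : Subgroup G) : Prop := R ≤ S ∧ Nat.card R = r ^ (Nat.card S).factorization r

variable {r : ℕ} {Q R S K A B D : Subgroup G}

theorem IsEA.mono (h : IsEA r A) (hB : B ≤ A) : IsEA r B :=
  ⟨fun a ha b hb => h.1 a (hB ha) b (hB hb), fun a ha => h.2 a (hB ha)⟩

theorem IsEA.bot : IsEA r (⊥ : Subgroup G) :=
  ⟨fun a ha b hb => by rw [mem_bot.1 ha, mem_bot.1 hb], fun a ha => by rw [mem_bot.1 ha, one_pow]⟩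

theorem IsEA.map {H : Type*} [Group H] (h : IsEA r A) (f : G →* H) : IsEA r (A.map f) := by
  constructor
  · rintro _ ⟨a, ha, rfl⟩ _ ⟨b, hb, rfl⟩
    rw [← map_mul, ← map_mul, h.1 a ha b hb]
  · rintro _ ⟨a, ha, rfl⟩
    rw [← map_pow, h.2 a ha, map_one]

theorem IsEA.le_centralizer (h : IsEA r A) : A ≤ centralizer (A : Set G) := by
  intro a ha
  rw [mem_centralizer_iff]
  exact fun b hb => h.1 b hb a ha

theorem IsEA.isPGroup (h : IsEA r A) : IsPGroup r A := by
  intro a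
  refine ⟨1, ?_⟩
  rw [pow_one]
  exact Subtype.ext (h.2 a a.2)

/-- a product of two commuting elementary abelian subgroups -/
theorem IsEA.sup (hA : IsEA r A) (hB : IsEA r B) (h : ∀ a ∈ A, ∀ b ∈ B, a * b = b * a) : IsEA r (A ⊔ B) := by
  have hle : A ≤ normalizer (B : Set G) := by
    refine le_trans ?_ (cent_le_norm B)
    intro a ha
    rw [mem_centralizer_iff]
    exact fun b hb => (h a ha b hb).symm
  have hmem : ∀ x, x ∈ A ⊔ B → ∃ a ∈ A, ∃ b ∈ B, a * b = x := by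
    intro x hx
    have h1 : x ∈ ((A ⊔ B : Subgroup G) : Set G) := hx
    rw [coe_mul_of_left_le_normalizer_right _ _ hle] at h1
    exact Set.mem_mul.1 h1
  constructor
  · intro x hx y hy
    obtain ⟨a, ha, b, hb, rfl⟩ := hmem x hx
    obtain ⟨c, hc, d, hd, rfl⟩ := hmem y hy
    have e1 : b * c = c * b := (h c hc b hb).symm
    have e2 : a * c = c * a := hA.1 a ha c hc
    have e3 : b * d = d * b := hB.1 b hb d hd
    have e4 : d * a = a * d := (h a ha d hd).symm
    calc a * b * (c * d) = a * (b * c) * d := by group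
      _ = a * (c * b) * d := by rw [e1]
      _ = (a * c) * (b * d) := by group
      _ = (c * a) * (d * b) := by rw [e2, e3]
      _ = c * (a * d) * b := by group
      _ = c * (d * a) * b := by rw [e4]
      _ = c * d * (a * b) := by group
  · intro x hx
    obtain ⟨a, ha, b, hb, rfl⟩ := hmem x hx
    have e : Commute a b := h a ha b hb
    rw [e.mul_pow, hA.2 a ha, hB.2 b hb, one_mul]

section fin

variable [Finite G]

theorem exists_maxEA (r : ℕ) (Q : Subgroup G) : ∃ A, MaxEA r Q A := by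
  have hfin : (Set.univ : Set (Subgroup G)).Finite := Set.toFinite _
  obtain ⟨A, ⟨hA1, hA2⟩, hmax⟩ := Set.exists_max_image {A : Subgroup G | A ≤ Q ∧ IsEA r A}
    (fun A => Nat.card A) (Set.toFinite _) ⟨⊥, bot_le, IsEA.bot⟩
  exact ⟨A, hA1, hA2, fun B hB1 hB2 => hmax B ⟨hB1, hB2⟩⟩

theorem MaxEA.le_JE (h : MaxEA r Q A) : A ≤ JE r Q := le_iSup₂_of_le A h le_rfl

theorem JE_le (r : ℕ) (Q : Subgroup G) : JE r Q ≤ Q := iSup₂_le fun _ h => h.1

theorem YE_le_of (h : MaxEA r Q A) : YE r Q ≤ A := iInf₂_le A h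

theorem YE_isEA (r : ℕ) (Q : Subgroup G) : IsEA r (YE r Q) := by
  obtain ⟨A, hA⟩ := exists_maxEA r Q
  exact hA.2.1.mono (YE_le_of hA)

theorem YE_le (r : ℕ) (Q : Subgroup G) : YE r Q ≤ Q := by
  obtain ⟨A, hA⟩ := exists_maxEA r Q
  exact (YE_le_of hA).trans hA.1

theorem YE_le_JE (r : ℕ) (Q : Subgroup G) : YE r Q ≤ JE r Q := by
  obtain ⟨A, hA⟩ := exists_maxEA r Q
  exact (YE_le_of hA).trans hA.le_JE

/-- `J(Q)` centralises `Ω₁ Z(J(Q))` -/
theorem JE_le_centralizer_YE (r : ℕ) (Q : Subgroup G) : JE r Q ≤ centralizer (YE r Q : Set G) := by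
  refine iSup₂_le fun A hA => ?_
  intro a ha
  rw [mem_centralizer_iff]
  exact fun y hy => hA.2.1.1 y (YE_le_of hA hy) a ha

/-- an elementary abelian subgroup of `Q` centralised by `J(Q)` is in `Ω₁ Z(J(Q))` -/
theorem le_YE (hD : D ≤ Q) (hE : IsEA r D) (h : JE r Q ≤ centralizer (D : Set G)) : D ≤ YE r Q := by
  refine le_iInf₂ fun A hA => ?_
  have h1 : IsEA r (A ⊔ D) := by
    refine hA.2.1.sup hE fun a ha d hd => ?_
    have h2 := h (hA.le_JE ha)
    rw [mem_centralizer_iff] at h2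
    exact (h2 d hd).symm
  have h2 : A = A ⊔ D := eq_of_le_of_card_ge le_sup_left (hA.2.2 _ (sup_le hA.1 hD) h1)
  rw [h2]
  exact le_sup_right

/-- the same with the single maximal subgroups -/
theorem le_YE' (hD : D ≤ Q) (hE : IsEA r D) (h : ∀ A, MaxEA r Q A → A ≤ centralizer (D : Set G)) :
    D ≤ YE r Q :=
  le_YE hD hE (iSup₂_le h)

/-- monotonicity: `J(R) ≤ K ≤ R` -/
theorem maxEA_iff (hKR : K ≤ R) (hJ : JE r R ≤ K) : MaxEA r K A ↔ MaxEA r R A := by
  constructor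
  · rintro ⟨h1, h2, h3⟩
    obtain ⟨B, hB⟩ := exists_maxEA r R
    have h4 : Nat.card B ≤ Nat.card A := h3 B (hB.le_JE.trans hJ) hB.2.1
    exact ⟨h1.trans hKR, h2, fun C hC hC' => (hB.2.2 C hC hC').trans h4⟩
  · intro h
    exact ⟨h.le_JE.trans hJ, h.2.1, fun C hC hC' => h.2.2 C (hC.trans hKR) hC'⟩

theorem JE_eq (hKR : K ≤ R) (hJ : JE r R ≤ K) : JE r K = JE r R := by
  unfold JE
  simp only [maxEA_iff hKR hJ]

theorem YE_eq (hKR : K ≤ R) (hJ : JE r R ≤ K) : YE r K = YE r R := by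
  unfold YE
  simp only [maxEA_iff hKR hJ]

/-- conjugation -/
theorem MaxEA.conj (h : MaxEA r Q A) (g : G) :
    MaxEA r (Q.map (MulAut.conj g).toMonoidHom) (A.map (MulAut.conj g).toMonoidHom) := by
  refine ⟨map_mono h.1, h.2.1.map _, fun B hB hB' => ?_⟩
  have h1 : B.map (MulAut.conj g⁻¹).toMonoidHom ≤ Q := by
    have h2 := map_mono (f := (MulAut.conj g⁻¹).toMonoidHom) hB
    refine h2.trans (le_of_eq ?_)
    exact map_map_conj_inv Q g
  have h2 := h.2.2 _ h1 (hB'.map _)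
  rw [card_map_of_injective (MulAut.conj g⁻¹).injective] at h2
  rwa [card_map_of_injective (MulAut.conj g).injective]

theorem JE_conj_le (r : ℕ) (Q : Subgroup G) (g : G) :
    (JE r Q).map (MulAut.conj g).toMonoidHom ≤ JE r (Q.map (MulAut.conj g).toMonoidHom) := by
  unfold JE
  rw [Subgroup.map_iSup]
  refine iSup_le fun A => ?_
  rw [Subgroup.map_iSup]
  exact iSup_le fun hA => le_iSup₂_of_le _ (hA.conj g) le_rfl

theorem YE_conj_le (r : ℕ) (Q : Subgroup G) (g : G) :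
    (YE r Q).map (MulAut.conj g).toMonoidHom ≤ YE r (Q.map (MulAut.conj g).toMonoidHom) := by
  refine le_iInf₂ fun A hA => ?_
  have h1 := hA.conj g⁻¹
  rw [map_map_conj_inv Q g] at h1
  have h2 := map_mono (f := (MulAut.conj g).toMonoidHom) (YE_le_of h1)
  refine h2.trans (le_of_eq ?_)
  have h3 := map_map_conj_inv A g⁻¹
  rwa [inv_inv] at h3

theorem conj_eq_of_le {F : Subgroup G → Subgroup G}
    (hF : ∀ (Q : Subgroup G) (g : G), (F Q).map (MulAut.conj g).toMonoidHom ≤ F (Q.map (MulAut.conj g).toMonoidHom))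
    (Q : Subgroup G) (g : G) : F (Q.map (MulAut.conj g).toMonoidHom) = (F Q).map (MulAut.conj g).toMonoidHom := by
  refine le_antisymm ?_ (hF Q g)
  have h1 := map_mono (f := (MulAut.conj g).toMonoidHom) (hF (Q.map (MulAut.conj g).toMonoidHom) g⁻¹)
  rw [map_map_conj_inv Q g] at h1
  refine le_trans (le_of_eq ?_) h1
  have h3 := map_map_conj_inv (F (Q.map (MulAut.conj g).toMonoidHom)) g⁻¹
  rw [inv_inv] at h3
  exact h3.symm

theorem JE_conj (r : ℕ) (Q : Subgroup G) (g : G) :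
    JE r (Q.map (MulAut.conj g).toMonoidHom) = (JE r Q).map (MulAut.conj g).toMonoidHom :=
  conj_eq_of_le (F := JE r) (JE_conj_le r) Q g

theorem YE_conj (r : ℕ) (Q : Subgroup G) (g : G) :
    YE r (Q.map (MulAut.conj g).toMonoidHom) = (YE r Q).map (MulAut.conj g).toMonoidHom :=
  conj_eq_of_le (F := YE r) (YE_conj_le r) Q g

theorem map_conj_eq_of_mem {g : G} (hg : g ∈ normalizer (Q : Set G)) :
    Q.map (MulAut.conj g).toMonoidHom = Q := by
  ext x
  constructor
  · rintro ⟨q, hq, rfl⟩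
    exact (mem_normalizer_iff.1 hg q).1 hq
  · intro hx
    refine ⟨g⁻¹ * x * g, ?_, ?_⟩
    · have h1 := (mem_normalizer_iff.1 (inv_mem hg) x).1 hx
      rwa [inv_inv] at h1
    · show g * (g⁻¹ * x * g) * g⁻¹ = x
      group

theorem normalizer_le_JE (r : ℕ) (Q : Subgroup G) : normalizer (Q : Set G) ≤ normalizer (JE r Q : Set G) :=
  le_normalizer_of_map_le fun g hg => by rw [← JE_conj, map_conj_eq_of_mem hg]

theorem normalizer_le_YE (r : ℕ) (Q : Subgroup G) : normalizer (Q : Set G) ≤ normalizer (YE r Q : Set G) :=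
  le_normalizer_of_map_le fun g hg => by rw [← YE_conj, map_conj_eq_of_mem hg]

/-- `x ↦ Ω₁ Z(J(Q x))` is a functor -/
theorem Fun.YE {Ω : Type*} [MulAction G Ω] {Q : Ω → Subgroup G} (h : Fun G Q) (r : ℕ) :
    Fun G (fun x => YE r (Q x)) where
  le x := (YE_le r (Q x)).trans (h.le x)
  smul g x := by rw [h.smul, YE_conj]

theorem Fun.JE {Ω : Type*} [MulAction G Ω] {Q : Ω → Subgroup G} (h : Fun G Q) (r : ℕ) :
    Fun G (fun x => JE r (Q x)) where
  le x := (JE_le r (Q x)).trans (h.le x)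
  smul g x := by rw [h.smul, JE_conj]

end fin

end Cfsg.Agent.R2.T3544
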