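import Cfsg.Agent.R2.T3544.Loc31

/-!
# S3544, LOC: case `V_x ≰ Q_y` of the theorem of helper24 (stability group argument)
-/

set_option autoImplicit false

namespace Cfsg.Agent.R2.T3544

open Subgroup MulAction Cfsg
open scoped commutatorElement

variable {G : Type*} [Group G]

/-- conjugation by `h ^ n` when `z = [h, q]` commutes with `h` -/
theorem conj_pow_of_comm {h q z : G} (hz : h * q * h⁻¹ = z * q) (hc : h * z = z * h) (n : ℕ) :
    h ^ n * q * (h ^ n)⁻¹ = z ^ n * q := by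
  induction n with
  | zero => simp
  | succ n ih =>
    have h1 : h ^ (n + 1) * q * (h ^ (n + 1))⁻¹ = h * (h ^ n * q * (h ^ n)⁻¹) * h⁻¹ := by
      rw [pow_succ']; group
    have hcn : h * z ^ n = z ^ n * h := (Commute.pow_right (show Commute h z from hc) n).eq
    have h2 : h * (z ^ n * q) * h⁻¹ = z ^ n * (h * q * h⁻¹) := by
      rw [← mul_assoc h, hcn]; group
    rw [h1, ih, h2, hz, pow_succ]
    group

/-- `H` centralizes `Q / Y` and `Y`: the elements of order prime to `r` centralize `Q` -/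
theorem mem_cent_of_chain {r : ℕ} [Fact r.Prime] {Q Y : Subgroup G} (hQ : IsPGroup r Q) (hYQ : Y ≤ Q) {h : G}
    (h1 : ∀ q ∈ Q, ⁅h, q⁆ ∈ Y) (h2 : h ∈ centralizer (Y : Set G)) {n : ℕ} (hn : n.Coprime r) (hhn : h ^ n = 1) :
    h ∈ centralizer (Q : Set G) := by
  rw [mem_centralizer_iff]
  intro q hq
  set z := ⁅h, q⁆ with hz
  have hzY : z ∈ Y := h1 q hq
  have hzc : h * z = z * h := (mem_centralizer_iff.1 h2 z hzY).symm
  have hzq : h * q * h⁻¹ = z * q := by rw [hz, commutatorElement_def]; group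
  have h3 := conj_pow_of_comm hzq hzc n
  rw [hhn, one_mul, inv_one, mul_one] at h3
  have h4 : z ^ n = 1 := by
    have := mul_eq_right.1 h3.symm
    exact this
  obtain ⟨k, hk⟩ := hQ ⟨z, hYQ hzY⟩
  have h5 : z ^ r ^ k = 1 := by simpa using congrArg Subtype.val hk
  have h6 : z = 1 := by
    have h7 : (n.gcd (r ^ k)) = 1 := Nat.Coprime.pow_right k hn
    have h8 := pow_gcd_eq_one.2 ⟨h4, h5⟩
    rw [h7, pow_one] at h8
    exact h8
  rw [h6, one_mul] at hzq
  calc q * h = h * q * h⁻¹ * h := by rw [hzq]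
    _ = h * q := by group

/-- stability group: `H` is an `r`-group -/
theorem isPGroup_of_chain [Finite G] {r : ℕ} [Fact r.Prime] {Q Y H S : Subgroup G} (hQ : IsPGroup r Q) (hYQ : Y ≤ Q)
    (hHS : H ≤ S) (hcen : centralizer (Q : Set G) ⊓ S ≤ Q) (h1 : ⁅H, Q⁆ ≤ Y) (h2 : H ≤ centralizer (Y : Set G)) :
    IsPGroup r H := by
  rintro ⟨h, hh⟩
  obtain ⟨k, m, hm, hkm⟩ := Nat.exists_eq_pow_mul_and_not_dvd (n := orderOf h) (orderOf_pos h).ne' r
    (Fact.out : r.Prime).ne_one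
  refine ⟨k, ?_⟩
  have hcop : m.Coprime r := ((Nat.Prime.coprime_iff_not_dvd Fact.out).2 hm).symm
  have h3 : (h ^ r ^ k) ^ m = 1 := by rw [← pow_mul, ← hkm, pow_orderOf_eq_one]
  have hmem : h ^ r ^ k ∈ H := H.pow_mem hh _
  have h4 : h ^ r ^ k ∈ centralizer (Q : Set G) :=
    mem_cent_of_chain hQ hYQ (fun q hq => h1 (commutator_mem_commutator hmem hq)) (h2 hmem) hcop h3
  have h5 : h ^ r ^ k ∈ Q := hcen ⟨h4, hHS hmem⟩
  obtain ⟨l, hl⟩ := hQ ⟨h ^ r ^ k, h5⟩
  have h6 : (h ^ r ^ k) ^ r ^ l = 1 := by simpa using congrArg Subtype.val hl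
  have h7 : h ^ r ^ k = 1 := by
    have h8 := pow_gcd_eq_one.2 ⟨h3, h6⟩
    rw [Nat.Coprime.pow_right l hcop, pow_one] at h8
    exact h8
  apply Subtype.ext
  simpa using h7

section

variable {Ω : Type*} [MulAction G Ω] {Q V Y : Ω → Subgroup G} {r : ℕ} {ra : Ω → Ω → Prop} {da : ℕ}

theorem Fun.map_stab (h : Fun G Q) {y : Ω} {g : G} (hg : g ∈ stabilizer G y) :
    (Q y).map (MulAut.conj g).toMonoidHom = Q y := by
  rw [← h.smul, mem_stabilizer_iff.1 hg]

/-- the normal closure of `V x` in `G_y` -/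
def nclo (G : Type*) [Group G] {Ω : Type*} [MulAction G Ω] (V : Subgroup G) (y : Ω) : Subgroup G :=
  ⨆ g : stabilizer G y, V.map (MulAut.conj (g : G)).toMonoidHom

theorem le_nclo (V : Subgroup G) (y : Ω) : V ≤ nclo G V y := by
  have h1 := le_iSup (fun g : stabilizer G y => V.map (MulAut.conj (g : G)).toMonoidHom) 1
  refine le_trans (le_of_eq ?_) h1
  ext v
  simp

theorem nclo_le {V : Subgroup G} {y : Ω} (hV : V ≤ stabilizer G y) : nclo G V y ≤ stabilizer G y := by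
  refine iSup_le fun g => ?_
  rintro _ ⟨v, hv, rfl⟩
  exact (stabilizer G y).mul_mem ((stabilizer G y).mul_mem g.2 (hV hv)) ((stabilizer G y).inv_mem g.2)

theorem nclo_norm (V : Subgroup G) (y : Ω) : stabilizer G y ≤ normalizer (nclo G V y : Set G) := by
  refine le_normalizer_of_map_le fun g hg => ?_
  unfold nclo
  rw [Subgroup.map_iSup]
  refine iSup_le fun k => ?_
  refine le_trans (le_of_eq ?_) (le_iSup (fun g : stabilizer G y => V.map (MulAut.conj (g : G)).toMonoidHom)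
    (⟨g, hg⟩ * k))
  rw [Subgroup.map_map]
  congr 1
  ext v
  simp [mul_assoc]

/-- **case 4**: `[V_x, Q_y] ≤ Y_y` and `V_x` centralizes `Y_y`, then `V_x ≤ Q_y` -/
theorem RCore.le_of_chain [Finite G] (h : RCore G r Q) (A : Dir G ra da) [Fact r.Prime] (hr : ¬ r ∣ da)
    (hY : Fun G Y) (hYQ : ∀ x, Y x ≤ Q x) (hcen : ∀ x, centralizer (Q x : Set G) ⊓ stabilizer G x ≤ Q x)
    (hVQ : ∀ x, V x ≤ Q x) {x y : Ω} (hxy : ra x y) (h1 : ⁅V x, Q y⁆ ≤ Y y)
    (h2 : V x ≤ centralizer (Y y : Set G)) : V x ≤ Q y := by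
  have hVS : V x ≤ stabilizer G y := (hVQ x).trans (h.nbr_le A hr (A.symm hxy))
  have hHS := nclo_le (y := y) hVS
  refine (le_nclo (V x) y).trans (h.max (SubnIn.of_normal hHS (nclo_norm _ _)) ?_)
  refine isPGroup_of_chain (h.pg y) (hYQ y) hHS (hcen y) ?_ ?_
  · have h3 := iSup_comm_le (A := fun g : stabilizer G y => (V x).map (MulAut.conj (g : G)).toMonoidHom)
      (B := fun _ : Unit => Q y) (N := Y y) (fun g => ?_) (fun _ => (h.fn.le y).trans (hY.norm y)) (fun g _ => ?_)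
    · simpa [nclo] using h3
    · refine le_trans ?_ (hY.norm y)
      exact (le_iSup (fun g : stabilizer G y => (V x).map (MulAut.conj (g : G)).toMonoidHom) g).trans hHS
    · have h4 := map_mono (f := (MulAut.conj (g : G)).toMonoidHom) h1
      rw [map_commutator, h.fn.map_stab g.2, hY.map_stab g.2] at h4
      exact h4
  · refine iSup_le fun g => ?_
    rintro _ ⟨v, hv, rfl⟩
    rw [mem_centralizer_iff]
    intro z hz
    have h5 : (g : G)⁻¹ * z * (g : G) ∈ Y y := by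
      have h6 := (mem_normalizer_iff.1 (hY.norm y ((stabilizer G y).inv_mem g.2)) z).1 hz
      simpa using h6
    have h7 := mem_centralizer_iff.1 (h2 hv) _ h5
    show z * ((g : G) * v * (g : G)⁻¹) = (g : G) * v * (g : G)⁻¹ * z
    calc z * ((g : G) * v * (g : G)⁻¹) = (g : G) * (((g : G)⁻¹ * z * (g : G)) * v) * (g : G)⁻¹ := by group
      _ = (g : G) * (v * ((g : G)⁻¹ * z * (g : G))) * (g : G)⁻¹ := by rw [h7]
      _ = (g : G) * v * (g : G)⁻¹ * z := by group

end

end Cfsg.Agent.R2.T3544
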