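import Cfsg.Agent.R2.T3544.OffV

/-!
# S3544, LOC: the least order of a nontrivial `W`-invariant subgroup of `V`
-/

set_option autoImplicit false

namespace Cfsg.Agent.R2.T3544

open Subgroup MulAction Cfsg

variable {G : Type*} [Group G]

/-- the least order of a nontrivial `W`-invariant subgroup of `V` -/
noncomputable def mi (W V : Subgroup G) : ℕ :=
  sInf {n | ∃ K ≤ V, K ≠ ⊥ ∧ W ≤ normalizer (K : Set G) ∧ Nat.card K = n}

theorem mi_le {W V K : Subgroup G} (hK : K ≤ V) (hne : K ≠ ⊥) (hW : W ≤ normalizer (K : Set G)) :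
    mi W V ≤ Nat.card K := Nat.sInf_le ⟨K, hK, hne, hW, rfl⟩

theorem exists_mi {W V : Subgroup G} (hV : V ≠ ⊥) (hW : W ≤ normalizer (V : Set G)) :
    ∃ K ≤ V, K ≠ ⊥ ∧ W ≤ normalizer (K : Set G) ∧ Nat.card K = mi W V := by
  have h1 : {n | ∃ K ≤ V, K ≠ ⊥ ∧ W ≤ normalizer (K : Set G) ∧ Nat.card K = n}.Nonempty :=
    ⟨_, V, le_rfl, hV, hW, rfl⟩
  exact Nat.sInf_mem h1

theorem mi_conj_le (W V : Subgroup G) (hV : V ≠ ⊥) (hW : W ≤ normalizer (V : Set G)) (g : G) :
    mi (W.map (MulAut.conj g).toMonoidHom) (V.map (MulAut.conj g).toMonoidHom) ≤ mi W V := by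
  obtain ⟨K, hK, hne, hn, hc⟩ := exists_mi hV hW
  have hcard : Nat.card (K.map (MulAut.conj g).toMonoidHom) = Nat.card K :=
    Nat.card_congr (K.equivMapOfInjective _ (MulAut.conj g).injective).symm.toEquiv
  rw [← hc, ← hcard]
  refine mi_le (map_mono hK) ?_ ?_
  · intro h
    exact hne ((map_eq_bot_iff_of_injective _ (MulAut.conj g).injective).1 h)
  · refine le_normalizer_of_map_le ?_
    rintro _ ⟨s, hs, rfl⟩
    show (K.map (MulAut.conj g).toMonoidHom).map (MulAut.conj (g * s * g⁻¹)).toMonoidHom ≤ _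
    rw [← map_conj_mul, inv_mul_cancel_right, map_conj_mul, map_conj_of_mem_normalizer (hn hs)]

section

variable {Ω : Type*} [MulAction G Ω] {W V : Ω → Subgroup G}

theorem mi_fun (P : PP G Ω) (hW : Fun G W) (hV : Fun G V) (hne : ∀ x, V x ≠ ⊥) (x y : Ω) :
    mi (W x) (V x) = mi (W y) (V y) := by
  have key : ∀ x y : Ω, mi (W y) (V y) ≤ mi (W x) (V x) := by
    intro x y
    obtain ⟨g, rfl⟩ := P.trans x y
    rw [hW.smul, hV.smul]
    exact mi_conj_le _ _ (hne x) ((hW.le x).trans (hV.norm x)) g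
  exact le_antisymm (key y x) (key x y)

end

end Cfsg.Agent.R2.T3544
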