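import Cfsg.Agent.R2.T3544.Loc31
import Cfsg.Agent.R2.T3544.Resid

/-!
# S3544, LOC: minimal normal functors and Clifford

`MinFun G r Q V`: `V x` is a minimal normal subgroup of `G_x` inside `Ω_1 Z(Q x)`, equivariantly.
-/

set_option autoImplicit false

namespace Cfsg.Agent.R2.T3544

open Subgroup MulAction Cfsg
open scoped commutatorElement

section

variable {G : Type*} [Group G]

theorem map_conj_of_mem_normalizer {V : Subgroup G} {g : G} (hg : g ∈ normalizer (V : Set G)) :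
    V.map (MulAut.conj g).toMonoidHom = V := by
  apply le_antisymm
  · rintro _ ⟨v, hv, rfl⟩
    exact (mem_normalizer_iff.1 hg v).1 hv
  · intro v hv
    refine ⟨g⁻¹ * v * g, ?_, ?_⟩
    · have h1 := (mem_normalizer_iff.1 (inv_mem hg) v).1 hv
      rwa [inv_inv] at h1
    · show g * (g⁻¹ * v * g) * g⁻¹ = v
      group

theorem map_conj_mul (V : Subgroup G) (g h : G) : V.map (MulAut.conj (g * h)).toMonoidHom =
    (V.map (MulAut.conj h).toMonoidHom).map (MulAut.conj g).toMonoidHom := by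
  rw [Subgroup.map_map]
  congr 1
  ext x
  show g * h * x * (g * h)⁻¹ = g * (h * x * h⁻¹) * g⁻¹
  group

end

section

variable {G : Type*} [Group G] {Ω : Type*} [MulAction G Ω]

/-- a functor with a given value at a point -/
theorem Fun.exists_at (P : PP G Ω) (x : Ω) {V : Subgroup G} (hV : V ≤ stabilizer G x)
    (hn : stabilizer G x ≤ normalizer (V : Set G)) : ∃ X : Ω → Subgroup G, Fun G X ∧ X x = V := by
  have key : ∀ g h : G, g • x = h • x →
      V.map (MulAut.conj g).toMonoidHom = V.map (MulAut.conj h).toMonoidHom := by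
    intro g h hgh
    have h1 : h⁻¹ * g ∈ stabilizer G x := by
      rw [mem_stabilizer_iff, mul_smul, hgh, inv_smul_smul]
    have h2 := map_conj_of_mem_normalizer (hn h1)
    have h3 := map_conj_mul V h (h⁻¹ * g)
    rw [h2, mul_inv_cancel_left] at h3
    exact h3
  choose t ht using P.trans x
  refine ⟨fun y => V.map (MulAut.conj (t y)).toMonoidHom, ⟨fun y => ?_, fun g y => ?_⟩, ?_⟩
  · have h1 := map_mono (f := (MulAut.conj (t y)).toMonoidHom) hV
    rw [← stab_smul, ht] at h1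
    exact h1
  · show V.map (MulAut.conj (t (g • y))).toMonoidHom = (V.map (MulAut.conj (t y)).toMonoidHom).map _
    rw [← map_conj_mul]
    apply key
    rw [mul_smul, ht, ht]
  · show V.map (MulAut.conj (t x)).toMonoidHom = V
    have h1 := key (t x) 1 (by rw [ht, one_smul])
    rw [h1]
    exact map_conj_of_mem_normalizer (one_mem _)

/-- `Ω_1 Z(Q)` -/
def Om (r : ℕ) (Q : Subgroup G) : Subgroup G where
  carrier := {v | v ∈ Q ∧ v ∈ centralizer (Q : Set G) ∧ v ^ r = 1}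
  one_mem' := ⟨one_mem _, one_mem _, one_pow _⟩
  mul_mem' := by
    rintro a b ⟨ha1, ha2, ha3⟩ ⟨hb1, hb2, hb3⟩
    refine ⟨mul_mem ha1 hb1, mul_mem ha2 hb2, ?_⟩
    have hc : Commute a b := ((mem_centralizer_iff.1 ha2) b hb1).symm
    rw [hc.mul_pow, ha3, hb3, one_mul]
  inv_mem' := by
    rintro a ⟨ha1, ha2, ha3⟩
    exact ⟨inv_mem ha1, inv_mem ha2, by rw [inv_pow, ha3, inv_one]⟩

theorem mem_Om {r : ℕ} {Q : Subgroup G} {v : G} : v ∈ Om r Q ↔ v ∈ Q ∧ v ∈ centralizer (Q : Set G) ∧ v ^ r = 1 :=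
  Iff.rfl

theorem Om_ne_bot [Finite G] {r : ℕ} [Fact r.Prime] {Q : Subgroup G} (hQ : IsPGroup r Q) (hne : Q ≠ ⊥) :
    Om r Q ≠ ⊥ := by
  have hnt : Nontrivial Q := (Subgroup.nontrivial_iff_ne_bot Q).2 hne
  have h1 : Nontrivial (center Q) := hQ.center_nontrivial
  have h2 : IsPGroup r (center Q) := hQ.to_subgroup _
  obtain ⟨n, hn⟩ := IsPGroup.iff_card.1 h2
  have hn0 : n ≠ 0 := by
    rintro rfl
    rw [pow_zero] at hn
    have := Finite.one_lt_card (α := center Q)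
    omega
  have h3 : r ∣ Nat.card (center Q) := by rw [hn]; exact dvd_pow_self r hn0
  obtain ⟨z, hz⟩ := exists_prime_orderOf_dvd_card' r h3
  intro h
  have hz1 : (((z : Q) : G)) ∈ Om r Q := by
    refine ⟨(z : Q).2, ?_, ?_⟩
    · rw [mem_centralizer_iff]
      intro q hq
      have h4 := mem_center_iff.1 z.2 ⟨q, hq⟩
      exact congrArg Subtype.val h4
    · have h5 : z ^ r = 1 := by rw [← hz]; exact pow_orderOf_eq_one z
      have h6 := congrArg (fun c : center Q => (((c : Q)) : G)) h5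
      simpa using h6
  rw [h, mem_bot] at hz1
  have h7 : z = 1 := by
    apply Subtype.ext
    apply Subtype.ext
    simpa using hz1
  rw [h7, orderOf_one] at hz
  exact (Fact.out : r.Prime).one_lt.ne hz

theorem Om_norm {r : ℕ} {Q H : Subgroup G} (h : H ≤ normalizer (Q : Set G)) : H ≤ normalizer (Om r Q : Set G) := by
  refine le_normalizer_of_map_le fun g hg => ?_
  rintro _ ⟨v, ⟨hv1, hv2, hv3⟩, rfl⟩
  have hgn := h hg
  refine ⟨(mem_normalizer_iff.1 hgn v).1 hv1, ?_, ?_⟩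
  · rw [mem_centralizer_iff]
    intro q hq
    show q * (g * v * g⁻¹) = g * v * g⁻¹ * q
    have h1 : g⁻¹ * q * g⁻¹⁻¹ ∈ Q := (mem_normalizer_iff.1 (inv_mem hgn) q).1 hq
    have h2 := (mem_centralizer_iff.1 hv2) _ h1
    have h3 : g * (g⁻¹ * q * g⁻¹⁻¹ * v) * g⁻¹ = g * (v * (g⁻¹ * q * g⁻¹⁻¹)) * g⁻¹ := by rw [h2]
    have e1 : g * (g⁻¹ * q * g⁻¹⁻¹ * v) * g⁻¹ = q * (g * v * g⁻¹) := by group
    have e2 : g * (v * (g⁻¹ * q * g⁻¹⁻¹)) * g⁻¹ = g * v * g⁻¹ * q := by group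
    rw [← e1, ← e2, h3]
  · show (g * v * g⁻¹) ^ r = 1
    rw [conj_pow, hv3, mul_one, mul_inv_cancel]

/-- minimal nontrivial invariant subgroups -/
theorem exists_minInv [Finite G] {S Z : Subgroup G} (hZ : Z ≠ ⊥) (hS : S ≤ normalizer (Z : Set G)) :
    ∃ V ≤ Z, V ≠ ⊥ ∧ S ≤ normalizer (V : Set G) ∧
      ∀ K ≤ V, S ≤ normalizer (K : Set G) → K = ⊥ ∨ K = V := by
  have hfin : Finite (Subgroup G) := inferInstance
  obtain ⟨V, hV, hmin⟩ := (Set.toFinite {V : Subgroup G | V ≤ Z ∧ V ≠ ⊥ ∧ S ≤ normalizer (V : Set G)}).exists_le_minimal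
    (a := Z) ⟨le_rfl, hZ, hS⟩
  refine ⟨V, hmin.prop.1, hmin.prop.2.1, hmin.prop.2.2, fun K hK hn => ?_⟩
  by_cases h : K = ⊥
  · exact Or.inl h
  · exact Or.inr (le_antisymm hK (hmin.le_of_le ⟨hK.trans hmin.prop.1, h, hn⟩ hK))

/-- a minimal normal subgroup of `G_x` inside `Ω_1 Z(Q x)`, equivariantly -/
structure MinFun (G : Type*) [Group G] {Ω : Type*} [MulAction G Ω] (r : ℕ) (Q V : Ω → Subgroup G) : Prop where
  fn : Fun G V
  ne : ∀ x, V x ≠ ⊥
  le : ∀ x, V x ≤ Q x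
  cent : ∀ x, V x ≤ centralizer (Q x : Set G)
  pow : ∀ x, ∀ v ∈ V x, v ^ r = 1
  min : ∀ (x : Ω) (K : Subgroup G), K ≤ V x → stabilizer G x ≤ normalizer (K : Set G) → K = ⊥ ∨ K = V x

theorem MinFun.exist [Finite G] {r : ℕ} [Fact r.Prime] {Q : Ω → Subgroup G} (P : PP G Ω) (h : RCore G r Q) (x : Ω)
    (hne : Q x ≠ ⊥) : ∃ V : Ω → Subgroup G, MinFun G r Q V := by
  obtain ⟨V0, hV1, hV2, hV3, hV4⟩ := exists_minInv (S := stabilizer G x) (Om_ne_bot (h.pg x) hne) (Om_norm (h.fn.norm x))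
  have hV5 : V0 ≤ stabilizer G x := fun v hv => h.fn.le x (hV1 hv).1
  obtain ⟨V, hV, hVx⟩ := Fun.exists_at P x hV5 hV3
  refine ⟨V, hV, fun y => ?_, fun y => ?_, fun y => ?_, fun y => ?_, fun y K hK hn => ?_⟩
  · exact hV.ne_bot P (x := x) (by rw [hVx]; exact hV2) y
  · obtain ⟨g, rfl⟩ := P.trans x y
    rw [hV.smul, h.fn.smul, hVx]
    exact map_mono fun v hv => (hV1 hv).1
  · obtain ⟨g, rfl⟩ := P.trans x y
    rw [hV.smul, h.fn.smul, hVx]
    rintro _ ⟨v, hv, rfl⟩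
    rw [mem_centralizer_iff]
    rintro _ ⟨q, hq, rfl⟩
    have h1 := (mem_centralizer_iff.1 (hV1 hv).2.1) q hq
    rw [← map_mul, ← map_mul, h1]
  · obtain ⟨g, rfl⟩ := P.trans x y
    rw [hV.smul, hVx]
    rintro _ ⟨v, hv, rfl⟩
    rw [← map_pow, (hV1 hv).2.2, map_one]
  · obtain ⟨g, rfl⟩ := P.trans y x
    have h1 : K.map (MulAut.conj g).toMonoidHom ≤ V0 := by
      rw [← hVx, hV.smul]
      exact map_mono hK
    have h2 : stabilizer G (g • y) ≤ normalizer ((K.map (MulAut.conj g).toMonoidHom : Subgroup G) : Set G) := by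
      rw [stab_smul]
      refine le_normalizer_of_map_le ?_
      rintro _ ⟨s, hs, rfl⟩
      show (K.map (MulAut.conj g).toMonoidHom).map (MulAut.conj (g * s * g⁻¹)).toMonoidHom ≤ _
      rw [← map_conj_mul, inv_mul_cancel_right, map_conj_mul, map_conj_of_mem_normalizer (hn hs)]
    rcases hV4 _ h1 h2 with h3 | h3
    · left
      exact (map_eq_bot_iff_of_injective _ (MulAut.conj g).injective).1 h3
    · right
      rw [← hVx, hV.smul] at h3
      exact map_injective (MulAut.conj g).injective h3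

end

end Cfsg.Agent.R2.T3544
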