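import Cfsg.Agent.R2.T3544.OffV

/-!
# S3544, LOC: Clifford's theorem for a minimal normal abelian subgroup

`Cliff S W V`: `V` abelian, minimal among the nontrivial `S`-invariant subgroups, `W` normal in `S`.
`IsMinInv W N`: `N ≠ 1` is minimal `W`-invariant.
-/

set_option autoImplicit false

namespace Cfsg.Agent.R2.T3544

open Subgroup MulAction Cfsg

variable {G : Type*} [Group G]

/-- `N ≠ 1` minimal `W`-invariant -/
structure IsMinInv (W N : Subgroup G) : Prop where
  ne : N ≠ ⊥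
  norm : W ≤ normalizer (N : Set G)
  min : ∀ K : Subgroup G, K ≤ N → W ≤ normalizer (K : Set G) → K = ⊥ ∨ K = N

/-- `V` abelian minimal normal in `S`, `W` normal in `S` -/
structure Cliff (S W V : Subgroup G) : Prop where
  le : W ≤ S
  normW : S ≤ normalizer (W : Set G)
  normV : S ≤ normalizer (V : Set G)
  comm : ∀ a ∈ V, ∀ b ∈ V, a * b = b * a
  ne : V ≠ ⊥
  min : ∀ K : Subgroup G, K ≤ V → S ≤ normalizer (K : Set G) → K = ⊥ ∨ K = V

theorem norm_iSup {ι : Sort*} {W : Subgroup G} {f : ι → Subgroup G} (h : ∀ i, W ≤ normalizer (f i : Set G)) :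
    W ≤ normalizer ((⨆ i, f i : Subgroup G) : Set G) := by
  refine le_normalizer_of_map_le fun g hg => ?_
  rw [Subgroup.map_iSup]
  refine iSup_le fun i => ?_
  rw [map_conj_of_mem_normalizer (h i hg)]
  exact le_iSup f i

theorem norm_sup {W A B : Subgroup G} (hA : W ≤ normalizer (A : Set G)) (hB : W ≤ normalizer (B : Set G)) :
    W ≤ normalizer ((A ⊔ B : Subgroup G) : Set G) := by
  refine le_normalizer_of_map_le fun g hg => ?_
  rw [Subgroup.map_sup, map_conj_of_mem_normalizer (hA hg), map_conj_of_mem_normalizer (hB hg)]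

theorem norm_inf {W A B : Subgroup G} (hA : W ≤ normalizer (A : Set G)) (hB : W ≤ normalizer (B : Set G)) :
    W ≤ normalizer ((A ⊓ B : Subgroup G) : Set G) := by
  refine le_normalizer_of_map_le fun g hg => ?_
  exact le_inf ((map_mono inf_le_left).trans_eq (map_conj_of_mem_normalizer (hA hg)))
    ((map_mono inf_le_right).trans_eq (map_conj_of_mem_normalizer (hB hg)))

/-- conjugates by elements normalising `W` -/
theorem norm_conj {W K : Subgroup G} (hK : W ≤ normalizer (K : Set G)) {g : G} (hg : g ∈ normalizer (W : Set G)) :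
    W ≤ normalizer ((K.map (MulAut.conj g).toMonoidHom : Subgroup G) : Set G) := by
  refine le_normalizer_of_map_le fun w hw => ?_
  have h1 : g⁻¹ * w * g ∈ W := by
    have := (mem_normalizer_iff.1 (inv_mem hg) w).1 hw
    rwa [inv_inv] at this
  rw [← map_conj_mul]
  have e : w * g = g * (g⁻¹ * w * g) := by group
  rw [e, map_conj_mul, map_conj_of_mem_normalizer (hK h1)]

theorem IsMinInv.conj {W N : Subgroup G} (h : IsMinInv W N) {g : G} (hg : g ∈ normalizer (W : Set G)) :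
    IsMinInv W (N.map (MulAut.conj g).toMonoidHom) where
  ne := fun h1 => h.ne ((map_eq_bot_iff_of_injective _ (MulAut.conj g).injective).1 h1)
  norm := norm_conj h.norm hg
  min K hK hn := by
    have h1 : K.map (MulAut.conj g⁻¹).toMonoidHom ≤ N := by
      have h2 := map_mono (f := (MulAut.conj g⁻¹).toMonoidHom) hK
      rw [← map_conj_mul, inv_mul_cancel, map_conj_of_mem_normalizer (one_mem _)] at h2
      exact h2
    rcases h.min _ h1 (norm_conj hn (inv_mem hg)) with h3 | h3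
    · left
      exact (map_eq_bot_iff_of_injective _ (MulAut.conj g⁻¹).injective).1 h3
    · right
      rw [← h3, ← map_conj_mul, mul_inv_cancel, map_conj_of_mem_normalizer (one_mem _)]

/-- abelian: everything inside `V` normalises everything -/
theorem le_norm_of_comm {V A B : Subgroup G} (hc : ∀ a ∈ V, ∀ b ∈ V, a * b = b * a) (hA : A ≤ V) (hB : B ≤ V) :
    A ≤ normalizer (B : Set G) := by
  refine le_normalizer_of_map_le fun a ha => ?_
  rintro _ ⟨b, hb, rfl⟩
  show a * b * a⁻¹ ∈ B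
  rw [hc a (hA ha) b (hB hb), mul_inv_cancel_right]
  exact hb

theorem card_sup_of_inf [Finite G] {A B : Subgroup G} (h : A ≤ normalizer (B : Set G)) (hi : A ⊓ B = ⊥) :
    Nat.card (A ⊔ B : Subgroup G) = Nat.card A * Nat.card B := by
  rw [← Nat.card_prod]
  refine (Nat.card_congr (Equiv.ofBijective (fun p : A × B =>
    (⟨p.1 * p.2, mul_mem ((le_sup_left : A ≤ A ⊔ B) p.1.2) ((le_sup_right : B ≤ A ⊔ B) p.2.2)⟩ : (A ⊔ B : Subgroup G)))
    ⟨?_, ?_⟩)).symm
  · rintro ⟨a, b⟩ ⟨a', b'⟩ hab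
    have h1 : (a : G) * b = a' * b' := congrArg Subtype.val hab
    have h2 : (a' : G)⁻¹ * a = b' * (b : G)⁻¹ := by
      rw [inv_mul_eq_iff_eq_mul, ← mul_assoc, ← h1, mul_inv_cancel_right]
    have h3 : (a' : G)⁻¹ * a ∈ A ⊓ B :=
      ⟨A.mul_mem (A.inv_mem a'.2) a.2, by rw [h2]; exact B.mul_mem b'.2 (B.inv_mem b.2)⟩
    rw [hi, mem_bot] at h3
    have h4 : (a : G) = a' := by
      rw [inv_mul_eq_one] at h3
      exact h3.symm
    have h5 : (b : G) = b' := by
      rw [h4] at h1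
      exact mul_left_cancel h1
    exact Prod.ext (Subtype.ext h4) (Subtype.ext h5)
  · rintro ⟨g, hg⟩
    obtain ⟨b, hb, a, ha, rfl⟩ := Resid.exists_mul' h hg
    refine ⟨(⟨a, ha⟩, ⟨a⁻¹ * b * a, ?_⟩), ?_⟩
    · have h1 := (mem_normalizer_iff.1 (inv_mem (h ha)) b).1 hb
      rwa [inv_inv] at h1
    · apply Subtype.ext
      show a * (a⁻¹ * b * a) = b * a
      group

section

variable {S W V : Subgroup G}

theorem Cliff.exist_min [Finite G] (h : Cliff S W V) {K : Subgroup G} (hK : K ≤ V) (hne : K ≠ ⊥)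
    (hn : W ≤ normalizer (K : Set G)) : ∃ N ≤ K, IsMinInv W N := by
  obtain ⟨N, h1, h2, h3, h4⟩ := exists_minInv hne hn
  exact ⟨N, h1, h2, h3, h4⟩

/-- the conjugates of a nontrivial subgroup generate `V` -/
theorem Cliff.iSup_conj (h : Cliff S W V) {K : Subgroup G} (hK : K ≤ V) (hne : K ≠ ⊥) :
    ⨆ g : S, K.map (MulAut.conj (g : G)).toMonoidHom = V := by
  have h1 : (⨆ g : S, K.map (MulAut.conj (g : G)).toMonoidHom) ≤ V := by
    refine iSup_le fun g => ?_
    rw [← map_conj_of_mem_normalizer (h.normV g.2)]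
    exact map_mono hK
  have h2 : S ≤ normalizer ((⨆ g : S, K.map (MulAut.conj (g : G)).toMonoidHom : Subgroup G) : Set G) := by
    refine le_normalizer_of_map_le fun s hs => ?_
    rw [Subgroup.map_iSup]
    refine iSup_le fun g => ?_
    rw [← map_conj_mul]
    exact le_iSup (fun g : S => K.map (MulAut.conj (g : G)).toMonoidHom) (⟨s, hs⟩ * g)
  rcases h.min _ h1 h2 with h3 | h3
  · exfalso
    apply hne
    rw [eq_bot_iff, ← h3]
    refine le_iSup_of_le (1 : S) ?_
    rw [OneMemClass.coe_one, map_conj_of_mem_normalizer (one_mem _)]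
  · exact h3

theorem Cliff.exists_conj_not_le (h : Cliff S W V) {K C : Subgroup G} (hK : K ≤ V) (hne : K ≠ ⊥) (hC : ¬ V ≤ C) :
    ∃ g ∈ S, ¬ K.map (MulAut.conj g).toMonoidHom ≤ C := by
  by_contra hcon
  push Not at hcon
  apply hC
  rw [← h.iSup_conj hK hne]
  exact iSup_le fun g => hcon g g.2

/-- complements of `W`-invariant subgroups -/
theorem Cliff.exist_compl [Finite G] (h : Cliff S W V) {X : Subgroup G} (hX : X ≤ V) (hn : W ≤ normalizer (X : Set G)) :
    ∃ C ≤ V, W ≤ normalizer (C : Set G) ∧ X ⊓ C = ⊥ ∧ X ⊔ C = V := by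
  obtain ⟨C, -, hmax⟩ := (Set.toFinite {C : Subgroup G | C ≤ V ∧ W ≤ normalizer (C : Set G) ∧ X ⊓ C = ⊥}).exists_le_maximal
    (a := ⊥) ⟨bot_le, le_top.trans (normalizer_eq_top_iff.2 (inferInstance : (⊥ : Subgroup G).Normal)).ge, inf_bot_eq X⟩
  obtain ⟨hC1, hC2, hC3⟩ := hmax.prop
  refine ⟨C, hC1, hC2, hC3, ?_⟩
  by_contra hcon
  have hle : X ⊔ C ≤ V := sup_le hX hC1
  have hnle : ¬ V ≤ X ⊔ C := fun h1 => hcon (le_antisymm hle h1)
  have hWV : W ≤ normalizer (V : Set G) := h.le.trans h.normV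
  obtain ⟨N, hN1, hN2⟩ := h.exist_min le_rfl h.ne hWV
  obtain ⟨g, hg, hg1⟩ := h.exists_conj_not_le hN1 hN2.ne hnle
  have hM := hN2.conj (h.normW hg)
  set M := N.map (MulAut.conj g).toMonoidHom with hMdef
  have hMV : M ≤ V := by
    rw [hMdef, ← map_conj_of_mem_normalizer (h.normV hg)]
    exact map_mono hN1
  have hMi : M ⊓ (X ⊔ C) = ⊥ := by
    rcases hM.min _ inf_le_left (norm_inf hM.norm (norm_sup hn hC2)) with h3 | h3
    · exact h3
    · exact absurd (inf_eq_left.1 h3) hg1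
  have h4 : X ⊓ (C ⊔ M) = ⊥ := by
    rw [eq_bot_iff]
    rintro x ⟨hx1, hx2⟩
    obtain ⟨m, hm, c, hc, hxe⟩ := Resid.exists_mul' (le_norm_of_comm h.comm hC1 hMV) hx2
    have h5 : m ∈ X ⊔ C := by
      have e : m = x * c⁻¹ := by rw [hxe, mul_inv_cancel_right]
      rw [e]
      exact mul_mem ((le_sup_left : X ≤ X ⊔ C) hx1) (inv_mem ((le_sup_right : C ≤ X ⊔ C) hc))
    have h6 : m ∈ M ⊓ (X ⊔ C) := ⟨hm, h5⟩
    rw [hMi, mem_bot] at h6
    rw [h6, one_mul] at hxe
    have h7 : x ∈ X ⊓ C := ⟨hx1, by rw [hxe]; exact hc⟩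
    rwa [hC3] at h7
  have h5 : C ⊔ M ≤ C := hmax.le_of_ge ⟨sup_le hC1 hMV, norm_sup hC2 hM.norm, h4⟩ le_sup_left
  apply hg1
  exact (le_sup_right.trans h5).trans le_sup_right

theorem Cliff.card_le_aux [Finite G] (h : Cliff S W V) {N K : Subgroup G} (hN : IsMinInv W N) (hNV : N ≤ V)
    (hK : IsMinInv W K) (hKV : K ≤ V) : Nat.card K ≤ Nat.card N := by
  obtain ⟨C, hC1, hC2, hC3, hC4⟩ := h.exist_compl hNV hN.norm
  have h1 : ¬ V ≤ C := by
    intro h2
    apply hN.ne
    rw [← hC3]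
    exact (inf_eq_left.2 (hNV.trans h2)).symm
  obtain ⟨g, hg, hg1⟩ := h.exists_conj_not_le hKV hK.ne h1
  have hM := hK.conj (h.normW hg)
  have hMV : K.map (MulAut.conj g).toMonoidHom ≤ V := by
    rw [← map_conj_of_mem_normalizer (h.normV hg)]
    exact map_mono hKV
  have hMi : K.map (MulAut.conj g).toMonoidHom ⊓ C = ⊥ := by
    rcases hM.min _ inf_le_left (norm_inf hM.norm hC2) with h3 | h3
    · exact h3
    · exact absurd (inf_eq_left.1 h3) hg1
  have h2 := card_sup_of_inf (le_norm_of_comm h.comm hMV hC1) hMi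
  have h3 := card_sup_of_inf (le_norm_of_comm h.comm hNV hC1) hC3
  have h4 : Nat.card (K.map (MulAut.conj g).toMonoidHom ⊔ C : Subgroup G) ≤ Nat.card (N ⊔ C : Subgroup G) := by
    rw [hC4]
    exact card_le_of_le (sup_le hMV hC1)
  rw [h2, h3, card_map_of_injective (MulAut.conj g).injective] at h4
  exact Nat.le_of_mul_le_mul_right h4 Nat.card_pos

/-- all minimal `W`-invariant subgroups of `V` have the same order -/
theorem Cliff.card_eq [Finite G] (h : Cliff S W V) {N K : Subgroup G} (hN : IsMinInv W N) (hNV : N ≤ V)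
    (hK : IsMinInv W K) (hKV : K ≤ V) : Nat.card K = Nat.card N :=
  le_antisymm (h.card_le_aux hN hNV hK hKV) (h.card_le_aux hK hKV hN hNV)

/-- a nontrivial `W`-invariant subgroup of `V` is at least as large as a minimal one -/
theorem Cliff.card_le [Finite G] (h : Cliff S W V) {N K : Subgroup G} (hN : IsMinInv W N) (hNV : N ≤ V)
    (hK : K ≤ V) (hne : K ≠ ⊥) (hn : W ≤ normalizer (K : Set G)) : Nat.card N ≤ Nat.card K := by
  obtain ⟨M, hM1, hM2⟩ := h.exist_min hK hne hn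
  rw [← h.card_eq hN hNV hM2 (hM1.trans hK)]
  exact card_le_of_le hM1

/-- the same for sections -/
theorem Cliff.card_mul_le [Finite G] (h : Cliff S W V) {N X Y : Subgroup G} (hN : IsMinInv W N) (hNV : N ≤ V)
    (hY : Y ≤ V) (hXY : X < Y) (hnX : W ≤ normalizer (X : Set G)) (hnY : W ≤ normalizer (Y : Set G)) :
    Nat.card N * Nat.card X ≤ Nat.card Y := by
  have hX : X ≤ V := hXY.le.trans hY
  obtain ⟨C, hC1, hC2, hC3, hC4⟩ := h.exist_compl hX hnX
  have h1 : Y ⊓ C ≠ ⊥ := by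
    intro h2
    apply hXY.not_ge
    intro y hy
    have h3 : y ∈ X ⊔ C := by rw [hC4]; exact hY hy
    obtain ⟨c, hc, x, hx, rfl⟩ := Resid.exists_mul' (le_norm_of_comm h.comm hX hC1) h3
    have h4 : c ∈ Y ⊓ C := ⟨by
      have h5 := mul_mem hy (inv_mem (hXY.le hx))
      rwa [mul_inv_cancel_right] at h5, hc⟩
    rw [h2, mem_bot] at h4
    rw [h4, one_mul]
    exact hx
  have h2 := h.card_le hN hNV (inf_le_right.trans hC1 : Y ⊓ C ≤ V) h1 (norm_inf hnY hC2)
  have h3 : (Y ⊓ C) ⊓ X = ⊥ := by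
    rw [eq_bot_iff]
    rintro z ⟨⟨-, hz1⟩, hz2⟩
    have : z ∈ X ⊓ C := ⟨hz2, hz1⟩
    rwa [hC3] at this
  have h4 := card_sup_of_inf (le_norm_of_comm h.comm (inf_le_right.trans hC1 : Y ⊓ C ≤ V) hX) h3
  calc Nat.card N * Nat.card X ≤ Nat.card (Y ⊓ C : Subgroup G) * Nat.card X := Nat.mul_le_mul_right _ h2
    _ = Nat.card ((Y ⊓ C) ⊔ X : Subgroup G) := h4.symm
    _ ≤ Nat.card Y := card_le_of_le (sup_le inf_le_left hXY.le)

end

end Cfsg.Agent.R2.T3544
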