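import Mathlib
import Cfsg.Agent.R2.T3544.Resid
import Cfsg.Agent.R2.T3544.Chief2

/-!
# S3544: the residual for `Act d` and weight `r`; equivariance
-/

set_option autoImplicit false
set_option linter.unusedSectionVars false

namespace Cfsg.Agent.R2.T3544

open Subgroup MulAction
open scoped commutatorElement

namespace Resid

variable {G : Type*} [Group G]

theorem act_map (d : ℕ) (L H : Subgroup G) (g : G) :
    Act d (L.map (MulAut.conj g).toMonoidHom) (H.map (MulAut.conj g).toMonoidHom) ↔ Act d L H := by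
  rw [Act, Act, relIndex_map_map_of_injective _ _ (MulAut.conj g).injective]

theorem wt_map (O L H : Subgroup G) (g : G) :
    wt (O.map (MulAut.conj g).toMonoidHom) (L.map (MulAut.conj g).toMonoidHom)
      (H.map (MulAut.conj g).toMonoidHom) = wt O L H := by
  classical
  have h1 : ⁅H.map (MulAut.conj g).toMonoidHom, H.map (MulAut.conj g).toMonoidHom⁆ ≤
      L.map (MulAut.conj g).toMonoidHom ↔ ⁅H, H⁆ ≤ L := by
    rw [← map_commutator, map_conj_le_iff]
  unfold wt
  rw [← map_CF, relIndex_map_map_of_injective _ _ (MulAut.conj g).injective]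
  by_cases h2 : ⁅H, H⁆ ≤ L
  · rw [if_pos h2, if_pos (h1.2 h2)]
  · rw [if_neg h2, if_neg (fun h3 => h2 (h1.1 h3))]

theorem inf_sup_eq {O L H D : Subgroup G} (h : Chf O L H) (hD : O ≤ normalizer (D : Set G)) (h1 : H ⊓ D ≤ L) :
    H ⊓ (L ⊔ D) = L := by
  rcases h.alt hD with h2 | h2
  · exact h2
  · exfalso
    have h3 := h.down_eq hD h2
    rw [sup_eq_right.2 h1] at h3
    exact h.lt.ne h3

theorem le_sup_of {L H D : Subgroup G} (h1 : H ≤ L ⊔ H ⊓ D) : H ≤ L ⊔ D :=
  h1.trans (sup_le_sup_left inf_le_right _)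

/-- the residual of `N` for `Act d` and weight `r` -/
noncomputable def resW (O N : Subgroup G) (d r : ℕ) : Subgroup G := res O N (fun L H => Act d L H ∧ wt O L H = r)

theorem resW_noCF [Finite G] {O N : Subgroup G} (hNO : N ≤ O) (hN : O ≤ normalizer (N : Set G)) (d r : ℕ) :
    NoCF O N (fun L H => Act d L H ∧ wt O L H = r) (resW O N d r) := by
  apply noCF_res hNO hN
  · intro L H D h hD hDO h1 hp
    have hi := h.iso_up hD hDO (inf_sup_eq h hD h1)
    exact ⟨hi.act.2 hp.1, hi.wt.trans hp.2⟩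
  · intro L H D h hD _ h1 hp
    have hi := h.iso_down hD (le_sup_of h1)
    exact ⟨hi.act.1 hp.1, hi.wt.symm.trans hp.2⟩

theorem resW_le {O N : Subgroup G} (hN : O ≤ normalizer (N : Set G)) (d r : ℕ) : resW O N d r ≤ N :=
  res_le_of (noCF_self hN _)

theorem resW_norm [Finite G] {O N : Subgroup G} (hNO : N ≤ O) (hN : O ≤ normalizer (N : Set G)) (d r : ℕ) :
    O ≤ normalizer (resW O N d r : Set G) := (resW_noCF hNO hN d r).2.1

/-- helper12's form -/
theorem exists_resid [Finite G] {O N2 : Subgroup G} (h : O ≤ normalizer (N2 : Set G)) (hN : N2 ≤ O)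
    (p : Subgroup G → Subgroup G → Prop)
    (hup : ∀ L H D : Subgroup G, Chf O L H → O ≤ normalizer (D : Set G) → D ≤ O → H ⊓ D ≤ L → p L H →
      p (L ⊔ D) (H ⊔ D))
    (hdn : ∀ L H D : Subgroup G, Chf O L H → O ≤ normalizer (D : Set G) → D ≤ O → H ≤ L ⊔ H ⊓ D → p L H →
      p (L ⊓ D) (H ⊓ D)) :
    ∃ R ≤ N2, O ≤ normalizer (R : Set G) ∧ (∀ L H, Chf O L H → R ≤ L → H ≤ N2 → ¬ p L H) ∧
      ∀ R' ≤ N2, O ≤ normalizer (R' : Set G) → (∀ L H, Chf O L H → R' ≤ L → H ≤ N2 → ¬ p L H) → R ≤ R' := by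
  have h1 := noCF_res hN h hup hdn
  exact ⟨res O N2 p, h1.1, h1.2.1, h1.2.2, fun R' i1 i2 i3 => res_le_of ⟨i1, i2, i3⟩⟩

/-- if the residual is not contained in the `O`-normal subgroup `C`, there is a chief factor above `C` -/
theorem exists_of_not_le {O N C : Subgroup G} {d r : ℕ} (hC : C ≤ N) (hn : O ≤ normalizer (C : Set G))
    (h : ¬ resW O N d r ≤ C) : ∃ L H : Subgroup G, Chf O L H ∧ C ≤ L ∧ H ≤ N ∧ Act d L H ∧ wt O L H = r := by
  by_contra hc
  push Not at hc
  exact h (res_le_of ⟨hC, hn, fun L H h1 h2 h3 h4 => hc L H h1 h2 h3 h4.1 h4.2⟩)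

/-- the residual is nontrivial if `r` is attained -/
theorem resW_ne_bot [Finite G] {O N L H : Subgroup G} (hNO : N ≤ O) (hN : O ≤ normalizer (N : Set G)) {d r : ℕ}
    (hc : Chf O L H) (hH : H ≤ N) (ha : Act d L H) (hr : wt O L H = r) : resW O N d r ≠ ⊥ := by
  intro h
  have h1 := (resW_noCF hNO hN d r).2.2 L H hc (by rw [h]; exact bot_le) hH
  exact h1 ⟨ha, hr⟩

theorem resW_map (O N : Subgroup G) (d r : ℕ) (g : G) :
    resW (O.map (MulAut.conj g).toMonoidHom) (N.map (MulAut.conj g).toMonoidHom) d r =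
      (resW O N d r).map (MulAut.conj g).toMonoidHom :=
  res_map g fun L H => by rw [act_map, wt_map]

end Resid

open Resid in
/-- the residual is a functor -/
theorem Fun.resW {G : Type*} [Group G] {Ω : Type*} [MulAction G Ω] {O N : Ω → Subgroup G} (hO : Fun G O)
    (hN : Fun G N) (d r : ℕ) : Fun G (fun x => resW (O x) (N x) d r) where
  le x := (resW_le ((hO.le x).trans (hN.norm x)) d r).trans (hN.le x)
  smul g x := by rw [hO.smul, hN.smul, resW_map]

open Resid in
/-- attained weights are attained at every point -/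
theorem exists_wt_of_trans {G : Type*} [Group G] {Ω : Type*} [MulAction G Ω] (P : PP G Ω) {O N : Ω → Subgroup G}
    (hO : Fun G O) (hN : Fun G N) {d r : ℕ} {x : Ω}
    (h : ∃ L H : Subgroup G, Chf (O x) L H ∧ H ≤ N x ∧ Act d L H ∧ wt (O x) L H = r) (y : Ω) :
    ∃ L H : Subgroup G, Chf (O y) L H ∧ H ≤ N y ∧ Act d L H ∧ wt (O y) L H = r := by
  obtain ⟨L, H, h1, h2, h3, h4⟩ := h
  obtain ⟨g, rfl⟩ := P.trans x y
  refine ⟨L.map (MulAut.conj g).toMonoidHom, H.map (MulAut.conj g).toMonoidHom, ?_, ?_, ?_, ?_⟩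
  · rw [hO.smul]
    exact chf_map h1 g
  · rw [hN.smul]
    exact map_mono h2
  · rwa [act_map]
  · rwa [hO.smul, wt_map]

end Cfsg.Agent.R2.T3544
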