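import Mathlib
import Cfsg.Agent.R2.T3544.Fun
import Cfsg.Agent.R2.T3544.MuStep
import Cfsg.Agent.S0026
import Cfsg.Agent.S0027
import Cfsg.Agent.S0044
import Cfsg.Agent.Lib.LocalCore

/-!
# S3544: functors `X` (acting) and `O` (acted on), coprime: the soluble case NL (helper18, helper8, helper10)
-/

set_option autoImplicit false
set_option linter.unusedSectionVars false

namespace Cfsg.Agent.R2.T3544

open Subgroup Cfsg MulAction
open scoped commutatorElement
open Cfsg.Agent.Lib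

section

variable {G : Type*} [Group G]

/-- the Fitting subgroup of a subgroup, in the ambient group -/
def FitOf (N : Subgroup G) : Subgroup G := (fittingSubgroup N).map N.subtype

theorem FitOf_le (N : Subgroup G) : FitOf N ≤ N := map_subtype_le _

theorem FitOf_norm (N : Subgroup G) : N ≤ normalizer (FitOf N : Set G) :=
  LocalCore.le_normalizer_map_fittingSubgroup N

theorem FitOf_nil [Finite G] (N : Subgroup G) : Group.IsNilpotent (FitOf N) := by
  have h := Cores.fittingSubgroup_isNilpotent (G := N)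
  exact (Group.isNilpotent_congr ((fittingSubgroup N).equivMapOfInjective N.subtype N.subtype_injective)).1 h

theorem map_FitOf_le (N : Subgroup G) (g : G) :
    (FitOf N).map (MulAut.conj g).toMonoidHom ≤ FitOf (N.map (MulAut.conj g).toMonoidHom) := by
  let e' : N ≃* N.map (MulAut.conj g).toMonoidHom :=
    N.equivMapOfInjective (MulAut.conj g).toMonoidHom (MulAut.conj g).injective
  have h := Cores.map_equiv_fittingSubgroup e'
  rintro _ ⟨_, ⟨v, hv, rfl⟩, rfl⟩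
  refine ⟨e' v, ?_, rfl⟩
  rw [← h]
  exact ⟨v, hv, rfl⟩

theorem map_FitOf (N : Subgroup G) (g : G) :
    (FitOf N).map (MulAut.conj g).toMonoidHom = FitOf (N.map (MulAut.conj g).toMonoidHom) := by
  apply le_antisymm (map_FitOf_le N g)
  have h1 := map_FitOf_le (N.map (MulAut.conj g).toMonoidHom) g⁻¹
  rw [map_map_conj_inv] at h1
  have h2 := map_mono (f := (MulAut.conj g).toMonoidHom) h1
  have h3 := map_map_conj_inv (FitOf (N.map (MulAut.conj g).toMonoidHom)) g⁻¹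
  rw [inv_inv] at h3
  rwa [h3] at h2

theorem FitOf_inf_centralizer [Finite G] {N : Subgroup G} (hN : Group.IsSolvable N) :
    N ⊓ centralizer (FitOf N : Set G) ≤ FitOf N := by
  rintro x ⟨hx, hxc⟩
  have := hN
  have h := Cfsg.Agent.S0044.result (G := N)
  refine ⟨⟨x, hx⟩, h ?_, rfl⟩
  rw [mem_centralizer_iff]
  intro y hy
  exact Subtype.ext (mem_centralizer_iff.mp hxc (y : G) ⟨y, hy, rfl⟩)

theorem FitOf_ne_bot [Finite G] {N : Subgroup G} (hN : Group.IsSolvable N) (h : N ≠ ⊥) : FitOf N ≠ ⊥ := by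
  intro h1
  apply h
  have h2 := FitOf_inf_centralizer hN
  rw [h1] at h2
  rw [eq_bot_iff]
  refine le_trans (le_inf le_rfl fun x _ => ?_) h2
  rw [mem_centralizer_iff]
  intro y hy
  have hy1 : y = 1 := mem_bot.1 hy
  rw [hy1, one_mul, mul_one]

/-- coprime action is detected on the Fitting subgroup -/
theorem comm_eq_bot_of_fit [Finite G] {A N : Subgroup G} (hAN : A ≤ normalizer (N : Set G))
    (hcop : (Nat.card A).Coprime (Nat.card N)) (hN : Group.IsSolvable N) (h : ⁅FitOf N, A⁆ = ⊥) : ⁅N, A⁆ = ⊥ := by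
  have h1 : ⁅⁅A, FitOf N⁆, N⁆ = ⊥ := by rw [commutator_comm A, h, commutator_bot_left]
  have h2 : ⁅⁅FitOf N, N⁆, A⁆ = ⊥ := by
    rw [eq_bot_iff, ← h]
    exact commutator_mono (le_normalizer_iff_commutator_le_left.1 (FitOf_norm N)) le_rfl
  have h3 : ⁅⁅N, A⁆, FitOf N⁆ = ⊥ := commutator_commutator_eq_bot_of_rotate h1 h2
  have h4 : ⁅N, A⁆ ≤ N := le_normalizer_iff_commutator_le_left.1 hAN
  have h5 : ⁅N, A⁆ ≤ FitOf N :=
    (le_inf h4 (commutator_eq_bot_iff_le_centralizer.1 h3)).trans (FitOf_inf_centralizer hN)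
  have h6 : ⁅⁅N, A⁆, A⁆ = ⊥ := by
    rw [eq_bot_iff, ← h]
    exact commutator_mono h5 le_rfl
  rw [S0027.result A N hAN hcop (Or.inr hN)] at h6
  exact h6

theorem exists_mul_of_mem_sup {A N : Subgroup G} (h : A ≤ normalizer (N : Set G)) {g : G} (hg : g ∈ N ⊔ A) :
    ∃ n ∈ N, ∃ a ∈ A, g = n * a := by
  rw [← SetLike.mem_coe, coe_mul_of_right_le_normalizer_left N A h] at hg
  obtain ⟨n, hn, a, ha, rfl⟩ := hg
  exact ⟨n, hn, a, ha, rfl⟩

end

section

variable {G : Type*} [Group G] {Ω : Type*} [MulAction G Ω]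

/-- `N_r(x)`: the join of the `[O(x), X(y)]`, `y` a neighbour of `x` -/
def Nf (r : Ω → Ω → Prop) (X O : Ω → Subgroup G) (x : Ω) : Subgroup G := ⨆ y, ⨆ (_ : r x y), ⁅O x, X y⁆

theorem le_Nf {r : Ω → Ω → Prop} {X O : Ω → Subgroup G} {x y : Ω} (h : r x y) : ⁅O x, X y⁆ ≤ Nf r X O x :=
  le_iSup₂_of_le y h le_rfl

theorem Nf_le {r : Ω → Ω → Prop} {X O : Ω → Subgroup G} {x : Ω} {K : Subgroup G}
    (h : ∀ y, r x y → ⁅O x, X y⁆ ≤ K) : Nf r X O x ≤ K := iSup₂_le h

theorem Nf_map_le {r : Ω → Ω → Prop} {X O : Ω → Subgroup G} (FX : Fun G X) (FO : Fun G O)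
    (hr : ∀ (g : G) {x y : Ω}, r x y → r (g • x) (g • y)) (g : G) (x : Ω) :
    (Nf r X O x).map (MulAut.conj g).toMonoidHom ≤ Nf r X O (g • x) := by
  rw [map_le_iff_le_comap]
  refine Nf_le fun y hy => ?_
  rw [← map_le_iff_le_comap, map_commutator, ← FX.smul, ← FO.smul]
  exact le_Nf (hr g hy)

end

/-- the hypotheses: coprime functors `X`, `O` with `O` soluble and `O(x) ∩ G_y ≤ O(y)` for neighbours -/
structure XO (G : Type*) [Group G] {Ω : Type*} [MulAction G Ω] (r : Ω → Ω → Prop) (X O : Ω → Subgroup G) : Prop where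
  FX : Fun G X
  FO : Fun G O
  X1 : ∀ x, X x ≠ ⊥
  O1 : ∀ x, O x ≠ ⊥
  cop : ∀ x y, (Nat.card (X x)).Coprime (Nat.card (O y))
  sol : ∀ x, Group.IsSolvable (O x)
  nb : ∀ {x y}, r x y → X y ≤ stabilizer G x
  sh : ∀ {x y}, r x y → O x ⊓ stabilizer G y ≤ O y

section

variable {G : Type*} [Group G] [Finite G] {Ω : Type*} [MulAction G Ω]

variable {ra rb : Ω → Ω → Prop} {da db : ℕ} {X O : Ω → Subgroup G}

theorem XO.inf_bot {r : Ω → Ω → Prop} (h : XO G r X O) (x y : Ω) : O x ⊓ X y = ⊥ := by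
  rw [inf_comm]
  exact (disjoint_of_coprime_natCard (h.cop y x)).eq_bot

/-- `O(x) ∩ G_y` centralises `X(y)` -/
theorem XO.comm {r : Ω → Ω → Prop} (h : XO G r X O) {x y : Ω} (hy : r x y) :
    ⁅O x ⊓ stabilizer G y, X y⁆ = ⊥ := by
  rw [eq_bot_iff, ← h.inf_bot x y]
  refine le_inf ?_ ?_
  · exact (commutator_mono inf_le_left le_rfl).trans
      (le_normalizer_iff_commutator_le_left.1 ((h.nb hy).trans (h.FO.norm x)))
  · exact (commutator_mono inf_le_right le_rfl).trans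
      (le_normalizer_iff_commutator_le_right.1 (h.FX.norm y))

theorem XO.cent_le {r : Ω → Ω → Prop} (P : PP G Ω) (h : XO G r X O) (y : Ω) :
    centralizer (X y : Set G) ≤ stabilizer G y := h.FX.centralizer_le P (h.X1 y)

/-- the factorization of `O(x)` -/
theorem XO.fac {r : Ω → Ω → Prop} (P : PP G Ω) (h : XO G r X O) {x y : Ω} (hy : r x y) {g : G} (hg : g ∈ O x) :
    ∃ n ∈ Nf r X O x, ∃ o ∈ O x ⊓ O y, g = n * o := by
  have hn : X y ≤ normalizer (O x : Set G) := (h.nb hy).trans (h.FO.norm x)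
  have h1 := S0026.result (X y) (O x) hn (h.cop y x) (Or.inr (h.sol x))
  have h2 : O x ⊓ centralizer (X y : Set G) ≤ normalizer ((⁅O x, X y⁆ : Subgroup G) : Set G) :=
    inf_le_left.trans (normalizer_commutator_ge_left (O x) (X y))
  rw [← h1] at hg
  obtain ⟨n, hn, o, ho, rfl⟩ := exists_mul_of_mem_sup h2 hg
  refine ⟨n, le_Nf hy hn, o, ⟨ho.1, h.sh hy ⟨ho.1, h.cent_le P y ho.2⟩⟩, rfl⟩

theorem XO.Nf_le_O {r : Ω → Ω → Prop} (h : XO G r X O) (x : Ω) : Nf r X O x ≤ O x :=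
  Nf_le fun _ hy => le_normalizer_iff_commutator_le_left.1 ((h.nb hy).trans (h.FO.norm x))

theorem Fun.of_map_le {X : Ω → Subgroup G} (h1 : ∀ x, X x ≤ stabilizer G x)
    (h2 : ∀ (g : G) (x : Ω), (X x).map (MulAut.conj g).toMonoidHom ≤ X (g • x)) : Fun G X := by
  refine ⟨h1, fun g x => le_antisymm ?_ (h2 g x)⟩
  have h3 := map_mono (f := (MulAut.conj g).toMonoidHom) (h2 g⁻¹ (g • x))
  rw [inv_smul_smul] at h3
  refine le_trans (le_of_eq ?_) h3
  have h4 := map_map_conj_inv (X (g • x)) g⁻¹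
  rw [inv_inv] at h4
  exact h4.symm

theorem XO.FN {r : Ω → Ω → Prop} {d : ℕ} (D : Dir G r d) (h : XO G r X O) : Fun G (Nf r X O) :=
  Fun.of_map_le (fun x => (h.Nf_le_O x).trans (h.FO.le x))
    (Nf_map_le h.FX h.FO fun g {_ _} hxy => D.smul g hxy)

theorem Fun.fit (h : Fun G X) : Fun G (fun x => FitOf (X x)) where
  le x := (FitOf_le _).trans (h.le x)
  smul g x := by rw [h.smul, map_FitOf]

theorem conj_eq_of_comm {A B : Subgroup G} (h : ⁅A, B⁆ = ⊥) {a b : G} (ha : a ∈ A) (hb : b ∈ B) :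
    a * b * a⁻¹ = b := by
  have h1 := commutator_eq_bot_iff_le_centralizer.1 h ha
  have h2 := mem_centralizer_iff.1 h1 b hb
  rw [← h2, mul_inv_cancel_right]

/-- (iii) `V(y)` does not lie in `G_x` for neighbours `x`, `y` -/
theorem XO.not_fit_le {r : Ω → Ω → Prop} {d : ℕ} (P : PP G Ω) (D : Dir G r d) (h : XO G r X O) {x y : Ω}
    (hxy : r x y) : ¬ FitOf (Nf r X O y) ≤ stabilizer G x := by
  intro hle
  have hyx := D.symm hxy
  have h1 : ⁅FitOf (Nf r X O y), X x⁆ = ⊥ := by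
    rw [eq_bot_iff, ← h.comm hyx]
    exact commutator_mono (le_inf ((FitOf_le _).trans (h.Nf_le_O y)) hle) le_rfl
  have hsol : Group.IsSolvable (Nf r X O y) := by
    have := h.sol y
    exact Group.isSolvable_of_isSolvable_injective (inclusion_injective (h.Nf_le_O y))
  have h2 : ⁅Nf r X O y, X x⁆ = ⊥ :=
    comm_eq_bot_of_fit ((h.nb hyx).trans ((h.FN D).norm y))
      ((h.cop x y).coprime_dvd_right (card_dvd_of_le (h.Nf_le_O y))) hsol h1
  have h3 : Nf r X O y ≤ stabilizer G x :=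
    (commutator_eq_bot_iff_le_centralizer.1 h2).trans (h.cent_le P x)
  have h4 : Nf r X O y ≤ O x := (le_inf (h.Nf_le_O y) h3).trans (h.sh hyx)
  refine h.FO.not_le P D hyx (h.O1 y) fun g hg => ?_
  obtain ⟨n, hn, o, ho, rfl⟩ := h.fac P hyx hg
  exact (O x).mul_mem (h4 hn) ho.2

theorem XO.Nf_ne_bot {r : Ω → Ω → Prop} {d : ℕ} (P : PP G Ω) (D : Dir G r d) (h : XO G r X O) (x : Ω) :
    Nf r X O x ≠ ⊥ := by
  intro h1
  obtain ⟨y, hy⟩ := D.ex x
  refine h.FO.not_le P D hy (h.O1 x) fun g hg => ?_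
  obtain ⟨n, hn, o, ho, rfl⟩ := h.fac P hy hg
  rw [h1, mem_bot] at hn
  rw [hn, one_mul]
  exact ho.2

/-- `N_a(x) ≤ M_b(x)` -/
theorem XO.Nf_le_Mk (B : Dir G rb db) (ha : XO G ra X O) (hma : ∀ {x y : Ω}, ra x y → X y ≤ Mk G rb x) (x : Ω) :
    Nf ra X O x ≤ Mk G rb x :=
  Nf_le fun _ hy => (commutator_mono le_rfl (hma hy)).trans
    (le_normalizer_iff_commutator_le_right.1 ((ha.FO.le x).trans (B.Mk_norm x)))

/-- `[N_b(x), N_a(x)] = 1` -/
theorem XO.Nf_comm (A : Dir G ra da) (B : Dir G rb db) (ha : XO G ra X O) (hb : XO G rb X O)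
    (hma : ∀ {x y : Ω}, ra x y → X y ≤ Mk G rb x) (x : Ω) : ⁅Nf rb X O x, Nf ra X O x⁆ = ⊥ := by
  rw [commutator_eq_bot_iff_le_centralizer]
  refine Nf_le fun w hw => ?_
  rw [← commutator_eq_bot_iff_le_centralizer]
  have h1 : ⁅Nf ra X O x, X w⁆ = ⊥ := by
    rw [eq_bot_iff, ← hb.comm hw]
    exact commutator_mono (le_inf (ha.Nf_le_O x) ((ha.Nf_le_Mk B hma x).trans (Mk_le_nbr hw))) le_rfl
  apply commutator_commutator_eq_bot_of_rotate
  · rw [commutator_comm (X w), h1, commutator_bot_left]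
  · rw [eq_bot_iff, ← h1]
    refine commutator_mono ?_ le_rfl
    exact le_normalizer_iff_commutator_le_left.1 ((ha.FO.le x).trans ((ha.FN A).norm x))

theorem XO.muData (P : PP G Ω) (A : Dir G ra da) (B : Dir G rb db) (ha : XO G ra X O) (hb : XO G rb X O)
    (hma : ∀ {x y : Ω}, ra x y → X y ≤ Mk G rb x) (hmb : ∀ {x y : Ω}, rb x y → X y ≤ Mk G ra x) :
    MuData ra O (Nf ra X O) (fun x => FitOf (Nf rb X O x)) (fun x => FitOf (Nf ra X O x)) where
  fac x y hy g hg := ha.fac P hy hg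
  cen x n hn v hv := by
    have h := XO.Nf_comm A B ha hb hma x
    rw [commutator_comm] at h
    exact conj_eq_of_comm h hn (FitOf_le _ hv)
  norm x := (ha.FO.le x).trans ((hb.FN B).fit.norm x)
  sh x y hy := by
    refine (FitOf_le _).trans (le_inf (hb.Nf_le_O x) ?_)
    exact (le_inf (hb.Nf_le_O x) ((hb.Nf_le_Mk A hmb x).trans (Mk_le_nbr hy))).trans (ha.sh hy)
  nil x := FitOf_nil _
  faith x v hv hv1 := by
    by_contra hc
    push Not at hc
    let E : Subgroup G := FitOf (Nf rb X O x) ⊓ ⨅ y, ⨅ (_ : ra x y), centralizer (FitOf (Nf ra X O y) : Set G)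
    have hmem : ∀ {u : G}, u ∈ E ↔ u ∈ FitOf (Nf rb X O x) ∧
        ∀ y, ra x y → ∀ w ∈ FitOf (Nf ra X O y), u * w * u⁻¹ = w := by
      intro u
      rw [mem_inf, mem_iInf]
      refine and_congr_right fun _ => forall_congr' fun y => ?_
      rw [mem_iInf]
      refine forall_congr' fun hy => ?_
      rw [mem_centralizer_iff]
      refine forall₂_congr fun w hw => ?_
      rw [mul_inv_eq_iff_eq_mul]
      exact ⟨fun h => h.symm, fun h => h.symm⟩
    have hE1 : E ≠ ⊥ := by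
      intro h
      have : v ∈ E := hmem.2 ⟨hv, fun y hy w hw => hc y hy w hw⟩
      rw [h, mem_bot] at this
      exact hv1 this
    have hEx : E ≤ stabilizer G x := inf_le_left.trans ((hb.FN B).fit.le x)
    have hEn : stabilizer G x ≤ normalizer (E : Set G) := by
      refine le_normalizer_of_map_le fun g hg => ?_
      rintro _ ⟨u, hu, rfl⟩
      obtain ⟨hu1, hu2⟩ := hmem.1 hu
      refine hmem.2 ⟨(mem_normalizer_iff.1 ((hb.FN B).fit.norm x hg) u).1 hu1, fun y hy w hw => ?_⟩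
      have hy' := A.nbr hy ((stabilizer G x).inv_mem hg)
      have hw' : g⁻¹ * w * g ∈ FitOf (Nf ra X O (g⁻¹ • y)) := by
        rw [(ha.FN A).fit.smul]
        exact ⟨w, hw, by simp⟩
      have h3 := hu2 _ hy' _ hw'
      show (g * u * g⁻¹) * w * (g * u * g⁻¹)⁻¹ = w
      calc (g * u * g⁻¹) * w * (g * u * g⁻¹)⁻¹ = g * (u * (g⁻¹ * w * g) * u⁻¹) * g⁻¹ := by group
        _ = w := by rw [h3]; group
    have hEN := P.norm x E hEx hE1 hEn
    obtain ⟨y, hy⟩ := A.ex x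
    refine ha.not_fit_le P A hy fun w hw => hEN (cent_le_norm E ?_)
    rw [mem_centralizer_iff]
    intro u hu
    have := (hmem.1 hu).2 y hy w hw
    rwa [mul_inv_eq_iff_eq_mul] at this
  le x := ha.Nf_le_O x

/-- coprime functors `X`, `O`, both nontrivial, `O` soluble and shared: impossible -/
theorem false_of_XO [Nonempty Ω] (P : PP G Ω) (A : Dir G ra da) (B : Dir G rb db) (ha : XO G ra X O)
    (hb : XO G rb X O) (hma : ∀ {x y : Ω}, ra x y → X y ≤ Mk G rb x)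
    (hmb : ∀ {x y : Ω}, rb x y → X y ≤ Mk G ra x) : False := by
  have x : Ω := Classical.arbitrary Ω
  have h := mu_false (XO.muData P A B ha hb hma hmb) (XO.muData P B A hb ha hmb hma) x
  refine FitOf_ne_bot ?_ (hb.Nf_ne_bot P B x) h
  have := hb.sol x
  exact Group.isSolvable_of_isSolvable_injective (inclusion_injective (hb.Nf_le_O x))

theorem false_of_functors [Nonempty Ω] (P : PP G Ω) (A : Dir G ra da) (B : Dir G rb db) (hc : da.Coprime db)
    (FX : Fun G X) (FO : Fun G O) (X1 : ∀ x, X x ≠ ⊥) (O1 : ∀ x, O x ≠ ⊥)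
    (cop : ∀ x y, (Nat.card (X x)).Coprime (Nat.card (O y)))
    (hXa : ∀ x, (Nat.card (X x)).Coprime da) (hXb : ∀ x, (Nat.card (X x)).Coprime db)
    (sol : ∀ x, Group.IsSolvable (O x))
    (sha : ∀ {x y : Ω}, ra x y → O x ⊓ stabilizer G y ≤ O y)
    (shb : ∀ {x y : Ω}, rb x y → O x ⊓ stabilizer G y ≤ O y) : False := by
  have hsub : ∀ x, SubnIn (X x) (stabilizer G x) := fun x => SubnIn.of_normal (FX.le x) (FX.norm x)
  have hna : ∀ x, ¬ HasIdx (X x) da := fun x => not_hasIdx_of_card_dvd dvd_rfl (hXa x)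
  have hnb : ∀ x, ¬ HasIdx (X x) db := fun x => not_hasIdx_of_card_dvd dvd_rfl (hXb x)
  have h1 : ∀ {x y : Ω}, ra x y → X y ≤ stabilizer G x := fun {x y} hxy =>
    (A.le_Mk_of_subn (hsub y) (hna y)).trans (Mk_le_nbr (A.symm hxy))
  have h2 : ∀ {x y : Ω}, rb x y → X y ≤ stabilizer G x := fun {x y} hxy =>
    (B.le_Mk_of_subn (hsub y) (hnb y)).trans (Mk_le_nbr (B.symm hxy))
  have h3 : ∀ {x y : Ω}, ra x y → X y ≤ Mk G rb x := fun {x y} hxy =>
    A.le_Mk_of_subn' B hc hxy (hsub y) (h1 hxy) (hnb y)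
  have h4 : ∀ {x y : Ω}, rb x y → X y ≤ Mk G ra x := fun {x y} hxy =>
    B.le_Mk_of_subn' A hc.symm hxy (hsub y) (h2 hxy) (hna y)
  exact false_of_XO P A B ⟨FX, FO, X1, O1, cop, sol, h1, sha⟩ ⟨FX, FO, X1, O1, cop, sol, h2, shb⟩ h3 h4

end

end Cfsg.Agent.R2.T3544
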